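/-
`PSU_n(q)`: unitary transvections, Eichler elements, and equality in the central quotient.
-/
import Mathlib
import Cfsg.Prelude.Def_LieTypeDatum
import Cfsg.Agent.Lib.Classical.UnitaryStd
import Cfsg.Agent.Lib.Classical.UnitaryGen

set_option autoImplicit false

open scoped Classical

namespace Cfsg.Lib.Classical.PSUAut

open Matrix
open Cfsg.Lib.Classical (tv det_tv tv_mulVec hvec hvec_dot herm_add_right herm_smul_right herm_zero_left
  herm_zero_right herm_self_fixed herm_eq_zero_symm herm_eq_one_symm herm_sub_left herm_sub_right herm_neg_left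
  herm_neg_right exists_trace_eq exists_skew exists_norm_eq utv utv_mulVec)
open scoped MatrixGroups

variable {F : Type*} [Field F] {n q : ℕ} {σ : F ≃+* F}

set_option quotPrecheck false in
local notation "V" => (Fin n → F)
set_option quotPrecheck false in
local notation "hh" => (Cfsg.hermForm n F q)
set_option quotPrecheck false in
local notation "SUn" => (↥(Cfsg.SU n F q))
set_option quotPrecheck false in
local notation "PU" => (Cfsg.PSU n F q)

/-- The standing hypotheses: `σ` is the `q`-th power map and the form is unitary for it. -/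
structure Ctx (n q : ℕ) {F : Type*} [Field F] (σ : F ≃+* F) : Prop where
  pow : ∀ a, σ a = a ^ q
  form : Cfsg.Geo.IsUnitaryForm σ (Cfsg.hermForm n F q)
  card : Nat.card F = q ^ 2

theorem exists_ctx [Fintype F] (n : ℕ) {q : ℕ} (hF : Fintype.card F = q ^ 2) :
    ∃ σ : F ≃+* F, Ctx n q σ := by
  obtain ⟨σ, h1, h2, h3⟩ := Cfsg.Lib.Classical.exists_frobSq hF
  exact ⟨σ, h2, Cfsg.Lib.Classical.hermForm_isUnitaryForm h1 h2 h3 n, Nat.card_eq_fintype_card.trans hF⟩

/-- The matrix of an element of `SU`. -/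
abbrev sMat (A : SUn) : Matrix (Fin n) (Fin n) F := (A : Matrix.SpecialLinearGroup (Fin n) F).1

/-- An element of `SU` acting on a vector. -/
def act (A : SUn) (x : V) : V := sMat A *ᵥ x

theorem ext_su {a b : SUn} (h : ∀ x, act a x = act b x) : a = b :=
  Subtype.ext (Subtype.ext (ext_mulVec h))

theorem act_mul (a b : SUn) (x : V) : act (a * b) x = act a (act b x) :=
  (mulVec_mulVec x (sMat a) (sMat b)).symm

@[simp] theorem act_one (x : V) : act (1 : SUn) x = x := one_mulVec x

theorem act_inv (a : SUn) (x : V) : act a⁻¹ (act a x) = x := by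
  rw [← act_mul, inv_mul_cancel, act_one]

theorem act_inv' (a : SUn) (x : V) : act a (act a⁻¹ x) = x := by
  rw [← act_mul, mul_inv_cancel, act_one]

theorem act_add (a : SUn) (x y : V) : act a (x + y) = act a x + act a y := mulVec_add _ _ _

theorem act_smul (a : SUn) (c : F) (x : V) : act a (c • x) = c • act a x := mulVec_smul _ _ _

theorem act_zero (a : SUn) : act a 0 = 0 := mulVec_zero _

theorem act_ne_zero (a : SUn) {x : V} (hx : x ≠ 0) : act a x ≠ 0 := fun e => hx (by
  rw [← act_inv a x, e, act_zero])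

theorem iso (a : SUn) (x y : V) : hh (act a x) (act a y) = hh x y := a.2 x y

/-- Build an element of `SU`. -/
def mkSU (M : Matrix (Fin n) (Fin n) F) (h1 : M.det = 1) (h2 : ∀ x y, hh (M *ᵥ x) (M *ᵥ y) = hh x y) : SUn :=
  ⟨⟨M, h1⟩, h2⟩

theorem act_mkSU (M : Matrix (Fin n) (Fin n) F) (h1 : M.det = 1)
    (h2 : ∀ x y, hh (M *ᵥ x) (M *ᵥ y) = hh x y) (x : V) : act (mkSU M h1 h2) x = M *ᵥ x := rfl

/-- The unitary transvection `x ↦ x + c h(x,v) v`. -/
noncomputable def TU (v : V) (c : F) : SUn :=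
  if h : hh v v = 0 ∧ (tv v (c • hvec hh v)).det = 1 ∧
      ∀ x y, hh (tv v (c • hvec hh v) *ᵥ x) (tv v (c • hvec hh v) *ᵥ y) = hh x y
  then mkSU (tv v (c • hvec hh v)) h.2.1 h.2.2 else 1

/-- The Eichler element `x ↦ x + h(x,e)(w + z e) − h(x,w) e`. -/
noncomputable def EU (e w : V) (z : F) : SUn :=
  if h : (tv (w + z • e) (hvec hh e) * tv (-e) (hvec hh w)).det = 1 ∧
      ∀ x y, hh ((tv (w + z • e) (hvec hh e) * tv (-e) (hvec hh w)) *ᵥ x)
        ((tv (w + z • e) (hvec hh e) * tv (-e) (hvec hh w)) *ᵥ y) = hh x y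
  then mkSU (tv (w + z • e) (hvec hh e) * tv (-e) (hvec hh w)) h.1 h.2 else 1

variable (hc : Ctx n q σ)
include hc

theorem TU_act {v : V} (hv : hh v v = 0) {c : F} (hcs : c + σ c = 0) (x : V) :
    act (TU (q := q) v c) x = x + (c * hh x v) • v := by
  have hm : ∀ y, tv v (c • hvec hh v) *ᵥ y = y + (c * hh y v) • v := fun y => by
    rw [tv_mulVec, smul_dotProduct, hvec_dot hc.form, smul_eq_mul]
  have hd : (tv v (c • hvec hh v)).det = 1 := by
    rw [det_tv, smul_dotProduct, hvec_dot hc.form, hv, smul_zero, add_zero]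
  have hi : ∀ y z, hh (tv v (c • hvec hh v) *ᵥ y) (tv v (c • hvec hh v) *ᵥ z) = hh y z := by
    intro y z
    simp only [hm, hc.form.add_left, hc.form.smul_left, herm_add_right hc.form, herm_smul_right hc.form, hv,
      map_mul, mul_zero, add_zero]
    rw [← hc.form.herm v z]
    linear_combination (hh y v * hh v z) * hcs
  rw [TU, dif_pos ⟨hv, hd, hi⟩, act_mkSU, hm]

theorem EU_act {e w : V} {z : F} (he : hh e e = 0) (hw : hh w e = 0) (hz : z + σ z + hh w w = 0) (x : V) :
    act (EU (q := q) e w z) x = x + hh x e • (w + z • e) - hh x w • e := by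
  have hew : hh e w = 0 := herm_eq_zero_symm hc.form hw
  have hm : ∀ y, (tv (w + z • e) (hvec hh e) * tv (-e) (hvec hh w)) *ᵥ y =
      y + hh y e • (w + z • e) - hh y w • e := fun y => by
    rw [← mulVec_mulVec, tv_mulVec, tv_mulVec, hvec_dot hc.form, hvec_dot hc.form, hc.form.add_left,
      hc.form.smul_left, herm_neg_left hc.form, he, neg_zero, mul_zero, add_zero]
    module
  have hd : (tv (w + z • e) (hvec hh e) * tv (-e) (hvec hh w)).det = 1 := by
    rw [det_mul, det_tv, det_tv, hvec_dot hc.form, hvec_dot hc.form, hc.form.add_left, hc.form.smul_left, hw, he,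
      herm_neg_left hc.form, hew]
    simp
  have hi : ∀ x y, hh ((tv (w + z • e) (hvec hh e) * tv (-e) (hvec hh w)) *ᵥ x)
      ((tv (w + z • e) (hvec hh e) * tv (-e) (hvec hh w)) *ᵥ y) = hh x y := by
    intro a b
    simp only [hm, herm_sub_left hc.form, herm_sub_right hc.form, hc.form.add_left, hc.form.smul_left,
      herm_add_right hc.form, herm_smul_right hc.form, he, hw, hew, map_mul, mul_zero, add_zero, zero_add, sub_zero]
    rw [← hc.form.herm e b, ← hc.form.herm w b]
    linear_combination (hh a e * hh e b) * hz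
  rw [EU, dif_pos ⟨hd, hi⟩, act_mkSU, hm]

theorem skew_add {a b : F} (ha : a + σ a = 0) (hb : b + σ b = 0) : (a + b) + σ (a + b) = 0 := by
  rw [map_add]; linear_combination ha + hb

theorem TU_add {v : V} (hv : hh v v = 0) {a b : F} (ha : a + σ a = 0) (hb : b + σ b = 0) :
    (TU v a * TU v b : SUn) = TU v (a + b) := ext_su fun x => by
  rw [act_mul, TU_act hc hv hb, TU_act hc hv ha, TU_act hc hv (skew_add hc ha hb), hc.form.add_left,
    hc.form.smul_left, hv]
  module

theorem TU_zero {v : V} (hv : hh v v = 0) : (TU v (0 : F) : SUn) = 1 := ext_su fun x => by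
  rw [TU_act hc hv (by simp), act_one]; simp

theorem iso_self (g : SUn) {v : V} (hv : hh v v = 0) : hh (act g v) (act g v) = 0 := by rw [iso, hv]

theorem conj_TU (g : SUn) {v : V} (hv : hh v v = 0) {c : F} (hcs : c + σ c = 0) :
    g * TU v c * g⁻¹ = (TU (act g v) c : SUn) := by
  rw [mul_inv_eq_iff_eq_mul]
  refine ext_su fun x => ?_
  rw [act_mul, act_mul, TU_act hc hv hcs, TU_act hc (iso_self hc g hv) hcs, iso, act_add, act_smul]

theorem TU_smul {v : V} (hv : hh v v = 0) (r : F) {c : F} (hcs : c + σ c = 0) :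
    (TU (r • v) c : SUn) = TU v (r * σ r * c) := ext_su fun x => by
  have hrv : hh (r • v) (r • v) = 0 := by rw [hc.form.smul_left, herm_smul_right hc.form, hv]; ring
  have hrs : r * σ r * c + σ (r * σ r * c) = 0 := by
    rw [map_mul, map_mul, hc.form.involutive]; linear_combination (r * σ r) * hcs
  rw [TU_act hc hrv hcs, TU_act hc hv hrs, herm_smul_right hc.form, smul_smul]
  congr 2
  ring

theorem exists_partner {e : V} (he : e ≠ 0) (hee : hh e e = 0) : ∃ f : V, hh f f = 0 ∧ hh f e = 1 := by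
  obtain ⟨x, hx⟩ := (hc.form.nondegenerate e he).1
  obtain ⟨x, hx⟩ : ∃ x : V, hh x e = 1 :=
    ⟨(hh x e)⁻¹ • x, by rw [hc.form.smul_left, inv_mul_cancel₀ hx]⟩
  obtain ⟨a, ha⟩ := exists_trace_eq hc.form.ne_refl hc.form.involutive (a := -hh x x)
    (by rw [map_neg, herm_self_fixed hc.form])
  refine ⟨x + a • e, ?_, by rw [hc.form.add_left, hc.form.smul_left, hee, hx, mul_zero, add_zero]⟩
  rw [hc.form.add_left, hc.form.smul_left, herm_add_right hc.form, herm_add_right hc.form,
    herm_smul_right hc.form, herm_smul_right hc.form, hee, hx, herm_eq_one_symm hc.form hx]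
  linear_combination ha

theorem TU_eq_param {v w : V} (hv : hh v v = 0) (hw : hh w w = 0) {a b : F} (ha : a + σ a = 0) (hb : b + σ b = 0)
    (ha0 : a ≠ 0) (hv0 : v ≠ 0) (h : (TU v a : SUn) = TU w b) : ∃ r : F, v = r • w ∧ b = r * σ r * a := by
  obtain ⟨x, -, hx⟩ := exists_partner hc hv0 hv
  have e1 : act (TU v a : SUn) x = act (TU w b : SUn) x := by rw [h]
  rw [TU_act hc hv ha, TU_act hc hw hb, hx, mul_one, add_right_inj] at e1
  have hr : v = (a⁻¹ * (b * hh x w)) • w := by rw [mul_smul, ← e1, smul_smul, inv_mul_cancel₀ ha0, one_smul]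
  obtain ⟨r, hr⟩ : ∃ r : F, v = r • w := ⟨_, hr⟩
  refine ⟨r, hr, ?_⟩
  have hw0 : w ≠ 0 := fun e => hv0 (by rw [hr, e, smul_zero])
  obtain ⟨y, -, hy⟩ := exists_partner hc hw0 hw
  have hrs : r * σ r * a + σ (r * σ r * a) = 0 := by
    rw [map_mul, map_mul, hc.form.involutive]; linear_combination (r * σ r) * ha
  have e2 : act (TU v a : SUn) y = act (TU w b : SUn) y := by rw [h]
  rw [hr, TU_smul hc hw r ha, TU_act hc hw hrs, TU_act hc hw hb, hy, mul_one, mul_one, add_right_inj] at e2
  exact (smul_left_injective F hw0 e2).symm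

omit hc in
theorem scalar_mem_center {z : SUn} {r : F} (h : ∀ x, act z x = r • x) : z ∈ Subgroup.center SUn :=
  Subgroup.mem_center_iff.2 fun g => ext_su fun x => by rw [act_mul, act_mul, h, h, act_smul]

theorem center_scalar [Fintype F] (hn : 3 ≤ n) {z : SUn} (hz : z ∈ Subgroup.center SUn) :
    ∃ r : F, ∀ x, act z x = r • x := by
  obtain ⟨δ, hδ0, hδ⟩ := exists_skew hc.form.ne_refl hc.form.involutive
  have hδs : δ + σ δ = 0 := by rw [hδ, add_neg_cancel]
  have hfix : ∀ v : V, v ≠ 0 → hh v v = 0 → ∃ r : F, act z v = r • v := by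
    intro v hv0 hv
    obtain ⟨f, hf, hfv⟩ := exists_partner hc hv0 hv
    have e := congrArg (fun A : SUn => act A f) (Subgroup.mem_center_iff.1 hz (TU v δ)).symm
    simp only [act_mul, TU_act hc hv hδs, hfv, mul_one, act_add, act_smul, add_right_inj] at e
    refine ⟨δ⁻¹ * (δ * hh (act z f) v), ?_⟩
    rw [mul_smul, ← e, smul_smul, inv_mul_cancel₀ hδ0, one_smul]
  obtain ⟨e, hee, he0⟩ : ∃ e : V, hh e e = 0 ∧ e ≠ 0 := by
    obtain ⟨u, hu⟩ : ∃ u : Fin 0 → V, LinearIndependent F u := ⟨Fin.elim0, linearIndependent_empty_type⟩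
    obtain ⟨a, ha0, ha⟩ : ∃ a : F, a ≠ 0 ∧ a * σ a = -1 := by
      obtain ⟨a, ha⟩ := exists_norm_eq hc.form.ne_refl hc.form.involutive (a := (-1 : F)) (by simp)
      exact ⟨a, fun h => by rw [h, zero_mul] at ha; exact absurd ha (by simp), ha⟩
    refine ⟨Pi.single ⟨0, by omega⟩ 1 + a • Pi.single ⟨1, by omega⟩ 1, ?_, fun h => ?_⟩
    · have hq : (0 : F) ^ q = 0 := by rw [← hc.pow, map_zero]
      show ∑ i, _ * _ ^ q = (0 : F)
      rw [Finset.sum_eq_add (a := (⟨0, by omega⟩ : Fin n)) (b := ⟨1, by omega⟩) (by simp)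
        (fun i _ hi => by simp [hi.1, hi.2]) (by simp) (by simp)]
      simp [← hc.pow, ha]
    · have := congrFun h ⟨0, by omega⟩
      simp at this
  obtain ⟨f, hff, hfe⟩ := exists_partner hc he0 hee
  have hf0 : f ≠ 0 := fun h => by rw [h, herm_zero_left hc.form] at hfe; exact zero_ne_one hfe
  obtain ⟨a, ha⟩ := hfix e he0 hee
  obtain ⟨b, hb⟩ := hfix f hf0 hff
  refine ⟨b, fun x => ?_⟩
  have hef : hh e f = 1 := herm_eq_one_symm hc.form hfe
  have hW : ∀ w, hh w e = 0 → hh w f = 0 → ∀ z', z' + σ z' + hh w w = 0 →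
      act z w = b • w ∧ z' * a = z' * b := by
    intro w hwe hwf z' hz'
    let v : V := f + w + z' • e
    have hv : hh v v = 0 := by
      simp only [v, hc.form.add_left, hc.form.smul_left, herm_add_right hc.form, herm_smul_right hc.form, hff, hee,
        hfe, hef, hwe, hwf, herm_eq_zero_symm hc.form hwe, herm_eq_zero_symm hc.form hwf]
      linear_combination hz'
    have hve : hh v e = 1 := by simp [v, hc.form.add_left, hc.form.smul_left, hee, hfe, hwe]
    obtain ⟨c, hcv⟩ := hfix v (fun h => by rw [h, herm_zero_left hc.form] at hve; exact zero_ne_one hve) hv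
    simp only [v, act_add, act_smul, ha, hb] at hcv
    have e1 := congrArg (fun u => hh u e) hcv
    have hwz : hh (act z w) e = 0 := by
      have h := iso z w e
      rw [ha, herm_smul_right hc.form, hwe] at h
      refine (mul_eq_zero.1 h).resolve_left fun h0 => ?_
      rw [(map_eq_zero σ).1 h0, zero_smul] at ha
      exact act_ne_zero z he0 ha
    have hwz' : hh (act z w) f = 0 := by
      have h := iso z w f
      rw [hb, herm_smul_right hc.form, hwf] at h
      refine (mul_eq_zero.1 h).resolve_left fun h0 => ?_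
      rw [(map_eq_zero σ).1 h0, zero_smul] at hb
      exact act_ne_zero z hf0 hb
    simp only [hc.form.add_left, hc.form.smul_left, hee, hfe, hwe, hwz, mul_one, mul_zero, add_zero] at e1
    subst e1
    have e2 := congrArg (fun u => hh u f) hcv
    simp only [hc.form.add_left, hc.form.smul_left, hff, hef, hwf, hwz', mul_one, mul_zero, add_zero, zero_add] at e2
    have e3 : z' * a = b * z' := by linear_combination e2
    refine ⟨?_, by linear_combination e2⟩
    rw [smul_add, smul_add, smul_smul, smul_smul, e3] at hcv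
    linear_combination (norm := module) hcv
  obtain ⟨hab, -⟩ : a = b ∧ True := by
    refine ⟨mul_left_cancel₀ hδ0 (hW 0 (herm_zero_left hc.form _) (herm_zero_left hc.form _) δ ?_).2, trivial⟩
    rw [herm_zero_left hc.form, add_zero, hδs]
  let w : V := x - hh x f • e - hh x e • f
  have hwe : hh w e = 0 := by simp [w, herm_sub_left hc.form, hc.form.smul_left, hee, hfe]
  have hwf : hh w f = 0 := by simp [w, herm_sub_left hc.form, hc.form.smul_left, hff, hef]
  obtain ⟨z', hz'⟩ := exists_trace_eq hc.form.ne_refl hc.form.involutive (a := -hh w w)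
    (by rw [map_neg, herm_self_fixed hc.form])
  have hw := (hW w hwe hwf z' (by linear_combination hz')).1
  have ex : x = w + hh x f • e + hh x e • f := by simp only [w]; module
  conv_lhs => rw [ex]
  conv_rhs => rw [ex]
  rw [act_add, act_add, act_smul, act_smul, hw, ha, hb, hab]
  module

theorem mk_eq_iff [Fintype F] (hn : 3 ≤ n) {a b : SUn} :
    (QuotientGroup.mk a : PU) = QuotientGroup.mk b ↔ ∃ r : F, ∀ x, act b x = r • act a x := by
  rw [QuotientGroup.eq]
  constructor
  · intro h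
    obtain ⟨r, hr⟩ := center_scalar hc hn h
    refine ⟨r, fun x => ?_⟩
    have h' := congrArg (act a) (hr x)
    rwa [← act_mul, mul_inv_cancel_left, act_smul] at h'
  · rintro ⟨r, hr⟩
    exact scalar_mem_center fun x => by rw [act_mul, hr, act_smul, act_inv]

theorem eq_of_mk_eq [Fintype F] (hn : 3 ≤ n) {a b : SUn} {x : V} (hx : x ≠ 0) (ha : act a x = x) (hb : act b x = x)
    (h : (QuotientGroup.mk a : PU) = QuotientGroup.mk b) : a = b := by
  obtain ⟨r, hr⟩ := (mk_eq_iff hc hn).1 h
  have h2 := hr x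
  rw [ha, hb] at h2
  have hr1 : r = 1 := (smul_left_injective F hx (show (1 : F) • x = r • x by rw [one_smul, ← h2])).symm
  exact ext_su fun y => by rw [hr y, hr1, one_smul]

theorem exists_perp_pair (hn : 3 ≤ n) (v w : V) : ∃ x : V, x ≠ 0 ∧ hh x v = 0 ∧ hh x w = 0 := by
  let L : V →ₗ[F] Fin 2 → F :=
    LinearMap.pi ![Cfsg.Lib.Classical.leftLin hc.form v, Cfsg.Lib.Classical.leftLin hc.form w]
  have hL : LinearMap.ker L ≠ ⊥ := by
    intro h
    have h1 := LinearMap.finrank_le_finrank_of_injective (LinearMap.ker_eq_bot.1 h)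
    rw [Module.finrank_fintype_fun_eq_card, Module.finrank_fintype_fun_eq_card,
      Fintype.card_fin, Fintype.card_fin] at h1
    omega
  obtain ⟨x, hx, hx0⟩ := Submodule.exists_mem_ne_zero_of_ne_bot hL
  have h := LinearMap.mem_ker.1 hx
  exact ⟨x, hx0, congrFun h 0, congrFun h 1⟩

omit hc in
/-- A projective transvection. -/
noncomputable def PT (v : V) (c : F) : PU := QuotientGroup.mk (TU v c)

theorem PT_add {v : V} (hv : hh v v = 0) {a b : F} (ha : a + σ a = 0) (hb : b + σ b = 0) :
    (PT v a * PT v b : PU) = PT v (a + b) := by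
  rw [PT, PT, PT, ← QuotientGroup.mk_mul, TU_add hc hv ha hb]

theorem PT_zero {v : V} (hv : hh v v = 0) : (PT v (0 : F) : PU) = 1 := by rw [PT, TU_zero hc hv]; rfl

theorem TU_of_PT_eq [Fintype F] (hn : 3 ≤ n) {v w : V} (hv : hh v v = 0) (hw : hh w w = 0) {a b : F}
    (ha : a + σ a = 0) (hb : b + σ b = 0) (h : (PT v a : PU) = PT w b) : (TU v a : SUn) = TU w b := by
  obtain ⟨x, hx, h1, h2⟩ := exists_perp_pair hc hn v w
  exact eq_of_mk_eq hc hn hx (by rw [TU_act hc hv ha, h1]; simp) (by rw [TU_act hc hw hb, h2]; simp) h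

theorem PT_eq_param [Fintype F] (hn : 3 ≤ n) {v w : V} (hv : hh v v = 0) (hw : hh w w = 0) {a b : F}
    (ha : a + σ a = 0) (hb : b + σ b = 0) (ha0 : a ≠ 0) (hv0 : v ≠ 0) (h : (PT v a : PU) = PT w b) :
    ∃ r : F, v = r • w ∧ b = r * σ r * a :=
  TU_eq_param hc hv hw ha hb ha0 hv0 (TU_of_PT_eq hc hn hv hw ha hb h)

theorem PT_inj [Fintype F] (hn : 3 ≤ n) {v : V} (hv : hh v v = 0) (hv0 : v ≠ 0) {a b : F}
    (ha : a + σ a = 0) (hb : b + σ b = 0) (h : (PT v a : PU) = PT v b) : a = b := by
  obtain ⟨x, -, hx⟩ := exists_partner hc hv0 hv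
  have e : act (TU v a : SUn) x = act (TU v b : SUn) x := by rw [TU_of_PT_eq hc hn hv hv ha hb h]
  rw [TU_act hc hv ha, TU_act hc hv hb, hx, mul_one, mul_one, add_right_inj] at e
  exact smul_left_injective F hv0 e

/-- A projective Eichler element. -/
theorem EU_zero {e : V} (he : hh e e = 0) {c : F} (hcs : c + σ c = 0) : (EU e 0 c : SUn) = TU e c := ext_su fun x => by
  rw [EU_act hc he (herm_zero_left hc.form _) (by rw [herm_zero_left hc.form, add_zero, hcs]), TU_act hc he hcs,
    herm_zero_right hc.form]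
  module

theorem TU_mem_uGen_iff {H : Subgroup SUn} (h : ∀ v : V, hh v v = 0 → ∀ c, c + σ c = 0 → TU v c ∈ H) [Fintype F]
    (h3 : n = 3 → ∃ c : F, c ≠ 0 ∧ c * σ c ≠ 1) : H = ⊤ := by
  refine eq_top_iff.2 fun A _ => ?_
  let toG : SUn →* GL (Fin n) F := Matrix.SpecialLinearGroup.toGL.comp (Cfsg.SU n F q).subtype
  have hle : Cfsg.Lib.Classical.uGen hc.form ⊤ ≤ H.map toG :=
    Cfsg.Lib.Classical.uGen_le fun v _ hv c hcs => ⟨TU v c, h v hv c hcs, Units.ext (ext_mulVec fun x => by
      rw [utv_mulVec]; exact TU_act hc hv hcs x)⟩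
  obtain ⟨B, hB, e⟩ := hle (Cfsg.Lib.Classical.mem_uGen_top hc.form
    (fun h0 => h3 (by rwa [Fintype.card_fin] at h0)) (g := toG A) (fun x y => iso A x y)
    (Units.ext (A : Matrix.SpecialLinearGroup (Fin n) F).2))
  have : A = B := Subtype.ext (Subtype.ext (congrArg Units.val e).symm)
  rwa [this]

end Cfsg.Lib.Classical.PSUAut
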