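/-
Conjugation by `GU` and the field automorphisms, on `PSU`.
-/
import Mathlib
import Cfsg.Agent.Lib.Classical.PSUAut.Basic

set_option autoImplicit false

open scoped Classical

namespace Cfsg.Lib.Classical.PSUAut

open Matrix
open scoped MatrixGroups

variable {F : Type*} [Field F] {n q : ℕ} {σ : F ≃+* F}

set_option quotPrecheck false in
local notation "V" => (Fin n → F)
set_option quotPrecheck false in
local notation "hh" => (Cfsg.hermForm n F q)
set_option quotPrecheck false in
local notation "SUn" => (↥(Cfsg.SU n F q))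
set_option quotPrecheck false in
local notation "PU" => (Cfsg.PSU n F q)
set_option quotPrecheck false in
local notation "GUn" => (↥(Cfsg.GU n F q))

/-- Apply a field automorphism to a vector. -/
def fv (θ : F ≃+* F) (x : V) : V := fun i => θ (x i)

/-- An element of `GU` acting on a vector. -/
def gv (g : GUn) (x : V) : V := ((g : GL (Fin n) F) : Matrix (Fin n) (Fin n) F) *ᵥ x

theorem gv_iso (g : GUn) (x y : V) : hh (gv g x) (gv g y) = hh x y := g.2 x y

theorem gv_mul (a b : GUn) (x : V) : gv (a * b) x = gv a (gv b x) := (mulVec_mulVec x _ _).symm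

@[simp] theorem gv_one (x : V) : gv (1 : GUn) x = x := one_mulVec x

theorem gv_inv (a : GUn) (x : V) : gv a⁻¹ (gv a x) = x := by rw [← gv_mul, inv_mul_cancel, gv_one]

theorem gv_inv' (a : GUn) (x : V) : gv a (gv a⁻¹ x) = x := by rw [← gv_mul, mul_inv_cancel, gv_one]

theorem gv_add (g : GUn) (x y : V) : gv g (x + y) = gv g x + gv g y := mulVec_add _ _ _

theorem gv_smul (g : GUn) (c : F) (x : V) : gv g (c • x) = c • gv g x := mulVec_smul _ _ _

theorem hh_fv (θ : F ≃+* F) (x y : V) : hh (fv θ x) (fv θ y) = θ (hh x y) := by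
  simp only [Cfsg.hermForm, fv, map_sum, map_mul, map_pow]

theorem fv_symm (θ : F ≃+* F) (x : V) : fv θ (fv θ.symm x) = x := funext fun i => θ.apply_symm_apply _

theorem fv_mulVec (θ : F ≃+* F) (M : Matrix (Fin n) (Fin n) F) (x : V) : fv θ (M *ᵥ x) = M.map θ *ᵥ fv θ x :=
  funext fun i => RingHom.map_mulVec (θ : F →+* F) M x i

/-- Conjugation by an element of `GU`, as a map of `SU`. -/
def conjFun (g : GUn) (s : SUn) : SUn :=
  mkSU (((g : GL (Fin n) F) : Matrix (Fin n) (Fin n) F) * sMat s * (((g : GL (Fin n) F))⁻¹ : GL (Fin n) F).1)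
    (by rw [det_units_conj]; exact (s : Matrix.SpecialLinearGroup (Fin n) F).2)
    (fun x y => by
      rw [← mulVec_mulVec, ← mulVec_mulVec, ← mulVec_mulVec, ← mulVec_mulVec]
      show hh (gv g (act s (gv g⁻¹ x))) (gv g (act s (gv g⁻¹ y))) = _
      rw [gv_iso, iso, gv_iso])

theorem act_conjFun (g : GUn) (s : SUn) (x : V) : act (conjFun g s) x = gv g (act s (gv g⁻¹ x)) := by
  rw [conjFun, act_mkSU, ← mulVec_mulVec, ← mulVec_mulVec]
  rfl

/-- Conjugation by an element of `GU`, on `SU`. -/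
def conjSU : GUn →* MulAut SUn where
  toFun g :=
    { toFun := conjFun g
      invFun := conjFun g⁻¹
      left_inv := fun s => ext_su fun x => by simp only [act_conjFun, inv_inv, gv_inv, gv_inv']
      right_inv := fun s => ext_su fun x => by simp only [act_conjFun, inv_inv, gv_inv, gv_inv']
      map_mul' := fun s t => ext_su fun x => by simp only [act_conjFun, act_mul, gv_inv] }
  map_one' := MulEquiv.ext fun s => ext_su fun x => by
    show act (conjFun 1 s) x = act s x
    rw [act_conjFun, inv_one, gv_one, gv_one]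
  map_mul' a b := MulEquiv.ext fun s => ext_su fun x => by
    show act (conjFun (a * b) s) x = act (conjFun a (conjFun b s)) x
    simp only [act_conjFun, _root_.mul_inv_rev, gv_mul]

theorem act_conjSU (g : GUn) (s : SUn) (x : V) : act (conjSU g s) x = gv g (act s (gv g⁻¹ x)) := act_conjFun g s x

theorem map_mem_SU (θ : F ≃+* F) (s : SUn) (x y : V) :
    hh ((sMat s).map θ *ᵥ x) ((sMat s).map θ *ᵥ y) = hh x y := by
  rw [← fv_symm θ x, ← fv_symm θ y, ← fv_mulVec, ← fv_mulVec, hh_fv, hh_fv]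
  exact congrArg θ (iso s _ _)

theorem map_det (θ : F ≃+* F) (s : SUn) : ((sMat s).map θ).det = 1 := by
  rw [show (sMat s).map θ = (θ : F →+* F).mapMatrix (sMat s) from rfl, ← RingHom.map_det,
    show (sMat s).det = 1 from (s : Matrix.SpecialLinearGroup (Fin n) F).2, map_one]

/-- A field automorphism on `SU`. -/
def frobSU (θ : F ≃+* F) : MulAut SUn where
  toFun s := mkSU ((sMat s).map θ) (map_det θ s) (map_mem_SU θ s)
  invFun s := mkSU ((sMat s).map θ.symm) (map_det θ.symm s) (map_mem_SU θ.symm s)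
  left_inv s := Subtype.ext (Subtype.ext (by ext i j; exact θ.symm_apply_apply _))
  right_inv s := Subtype.ext (Subtype.ext (by ext i j; exact θ.apply_symm_apply _))
  map_mul' s t := Subtype.ext (Subtype.ext (Matrix.map_mul (f := (θ : F →+* F))))

theorem act_frobSU (θ : F ≃+* F) (s : SUn) (x : V) : act (frobSU θ s) x = fv θ (act s (fv θ.symm x)) := by
  conv_lhs => rw [← fv_symm θ x]
  exact (fv_mulVec θ (sMat s) _).symm

/-- Pass an automorphism of `SU` to `PSU`. -/
def toP : MulAut SUn →* MulAut PU where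
  toFun φ := QuotientGroup.congr _ _ φ (Subgroup.characteristic_iff_map_eq.1 inferInstance φ)
  map_one' := MulEquiv.ext fun x => by induction x using QuotientGroup.induction_on; rfl
  map_mul' a b := MulEquiv.ext fun x => by induction x using QuotientGroup.induction_on; rfl

theorem toP_mk (φ : MulAut SUn) (s : SUn) : toP φ (QuotientGroup.mk s : PU) = QuotientGroup.mk (φ s) := rfl

/-- `g ↦` the automorphism of `PSU` induced by conjugation. -/
def conjP : GUn →* MulAut PU := toP.comp conjSU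

/-- The standard field automorphism. -/
def frobP (θ : F ≃+* F) : MulAut PU := toP (frobSU θ)

theorem conjP_mk (g : GUn) (s : SUn) : conjP g (QuotientGroup.mk s : PU) = QuotientGroup.mk (conjSU g s) := rfl

theorem frobP_mk (θ : F ≃+* F) (s : SUn) : frobP θ (QuotientGroup.mk s : PU) = QuotientGroup.mk (frobSU θ s) := rfl

theorem frobP_mul (θ τ : F ≃+* F) : (frobP θ * frobP τ : MulAut PU) = frobP (θ * τ) := by
  rw [frobP, frobP, frobP, ← map_mul]
  exact congrArg toP (MulEquiv.ext fun s => rfl)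

theorem frobP_one : (frobP (1 : F ≃+* F) : MulAut PU) = 1 := by
  rw [frobP, ← map_one toP]
  exact congrArg toP (MulEquiv.ext fun s => rfl)

/-- Apply a field automorphism to an element of `GU`. -/
def mapG (θ : F ≃+* F) (g : GUn) : GUn :=
  ⟨Matrix.GeneralLinearGroup.map (θ : F →+* F) g.1, fun x y => by
    show hh (g.1.1.map θ *ᵥ x) (g.1.1.map θ *ᵥ y) = _
    rw [← fv_symm θ x, ← fv_symm θ y, ← fv_mulVec, ← fv_mulVec, hh_fv, hh_fv]
    exact congrArg θ (g.2 _ _)⟩

theorem coe_mapG (θ : F ≃+* F) (g : GUn) :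
    ((mapG θ g : GUn) : GL (Fin n) F).1 = g.1.1.map θ := rfl

theorem gv_mapG (θ : F ≃+* F) (g : GUn) (x : V) : gv (mapG θ g) x = fv θ (gv g (fv θ.symm x)) := by
  conv_lhs => rw [← fv_symm θ x]
  exact (fv_mulVec θ _ _).symm

theorem mapG_inv (θ : F ≃+* F) (g : GUn) : (mapG θ g)⁻¹ = mapG θ g⁻¹ :=
  Subtype.ext (map_inv (Matrix.GeneralLinearGroup.map (θ : F →+* F)) g.1).symm

theorem frobP_conjP (θ : F ≃+* F) (g : GUn) : (frobP θ * conjP g : MulAut PU) = conjP (mapG θ g) * frobP θ := by
  rw [frobP, conjP, MonoidHom.comp_apply, MonoidHom.comp_apply, ← map_mul, ← map_mul]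
  refine congrArg toP (MulEquiv.ext fun s => ext_su fun x => ?_)
  have hsy : ∀ y : V, fv θ.symm (fv θ y) = y := fun y => funext fun i => θ.symm_apply_apply _
  simp only [MulAut.mul_apply, act_frobSU, act_conjSU, gv_mapG, mapG_inv, hsy]

theorem isInnerDiagonal_iff {β : MulAut PU} : Cfsg.IsInnerDiagonalAutPSU β ↔ ∃ g : GUn, β = conjP g := by
  constructor
  · rintro ⟨g, hg, h⟩
    refine ⟨⟨g, hg⟩, MulEquiv.ext fun x => ?_⟩
    induction x using QuotientGroup.induction_on with
    | H s => exact h s (conjSU ⟨g, hg⟩ s) rfl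
  · rintro ⟨g, rfl⟩
    exact ⟨g.1, g.2, fun s s' h => congrArg QuotientGroup.mk (Subtype.ext (Subtype.ext h.symm))⟩

theorem isFieldAutOf_iff {θ : F ≃+* F} {β : MulAut PU} : Cfsg.IsFieldAutPSUOf θ β ↔ β = frobP θ := by
  constructor
  · intro h
    refine MulEquiv.ext fun x => ?_
    induction x using QuotientGroup.induction_on with
    | H s => exact h s (frobSU θ s) rfl
  · rintro rfl s s' h
    exact congrArg QuotientGroup.mk (Subtype.ext (Subtype.ext h.symm))

variable (hc : Ctx n q σ)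
include hc

theorem frobP_PT (θ : F ≃+* F) {v : V} (hv : hh v v = 0) {c : F} (hcs : c + σ c = 0) :
    (frobP θ (PT v c : PU)) = PT (fv θ v) (θ c) := by
  rw [PT, frobP_mk, PT]
  refine congrArg QuotientGroup.mk (ext_su fun x => ?_)
  have hv' : hh (fv θ v) (fv θ v) = 0 := by rw [hh_fv, hv, map_zero]
  have hc' : θ c + σ (θ c) = 0 := by rw [hc.pow, ← map_pow, ← map_add, ← hc.pow, hcs, map_zero]
  rw [act_frobSU, TU_act hc hv hcs, TU_act hc hv' hc']
  conv_rhs => rw [← fv_symm θ x, hh_fv]
  funext i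
  simp [fv]

theorem conjP_PT (g : GUn) {v : V} (hv : hh v v = 0) {c : F} (hcs : c + σ c = 0) :
    (conjP g (PT v c : PU)) = PT (gv g v) c := by
  rw [PT, conjP_mk, PT]
  refine congrArg QuotientGroup.mk (ext_su fun x => ?_)
  have hv' : hh (gv g v) (gv g v) = 0 := by rw [gv_iso, hv]
  rw [act_conjSU, TU_act hc hv hcs, TU_act hc hv' hcs, gv_add, gv_smul, gv_inv']
  conv_rhs => rw [← gv_inv' g x, gv_iso]
  rw [gv_inv']

theorem frobSU_EU (θ : F ≃+* F) {e w : V} {z : F} (he : hh e e = 0) (hw : hh w e = 0)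
    (hz : z + σ z + hh w w = 0) : frobSU θ (EU e w z : SUn) = EU (fv θ e) (fv θ w) (θ z) := by
  refine ext_su fun x => ?_
  have hz' : θ z + σ (θ z) + hh (fv θ w) (fv θ w) = 0 := by
    rw [hc.pow, ← map_pow, ← hc.pow, hh_fv, ← map_add, ← map_add, hz, map_zero]
  rw [act_frobSU, EU_act hc he hw hz, EU_act hc (by rw [hh_fv, he, map_zero]) (by rw [hh_fv, hw, map_zero]) hz']
  conv_rhs => rw [← fv_symm θ x, hh_fv, hh_fv]
  funext i
  simp [fv]

theorem conjSU_EU (g : GUn) {e w : V} {z : F} (he : hh e e = 0) (hw : hh w e = 0) (hz : z + σ z + hh w w = 0) :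
    conjSU g (EU e w z : SUn) = EU (gv g e) (gv g w) z := by
  refine ext_su fun x => ?_
  rw [act_conjSU, EU_act hc he hw hz, EU_act hc (by rw [gv_iso, he]) (by rw [gv_iso, hw]) (by rw [gv_iso, hz])]
  conv_rhs => rw [← gv_inv' g x, gv_iso, gv_iso]
  rw [gv_inv', sub_eq_add_neg, ← neg_smul, gv_add, gv_add, gv_smul, gv_smul, gv_add, gv_smul, neg_smul,
    ← sub_eq_add_neg, gv_inv']

end Cfsg.Lib.Classical.PSUAut
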