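/-
Hyperbolic frames of a unitary space, diagonal elements, and a norm-one element of large order.
-/
import Mathlib
import Cfsg.Agent.Lib.Classical.PSUAut.Basic
import Cfsg.Agent.Lib.Classical.PSLAut.Conj

set_option autoImplicit false

open scoped Classical

namespace Cfsg.Lib.Classical.PSUAut

open Matrix
open Cfsg.Lib.Classical (hperp NondegOnH herm_add_right herm_smul_right herm_zero_left herm_zero_right
  herm_sum_left herm_sum_right herm_eq_zero_symm herm_eq_one_symm herm_sub_left herm_sub_right exists_norm_eq)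
open scoped MatrixGroups

variable {F : Type*} [Field F] {n q m : ℕ} {σ : F ≃+* F}

set_option quotPrecheck false in
local notation "V" => (Fin n → F)
set_option quotPrecheck false in
local notation "hh" => (Cfsg.hermForm n F q)
set_option quotPrecheck false in
local notation "SUn" => (↥(Cfsg.SU n F q))

/-- A hyperbolic pair together with an orthonormal basis of its orthogonal complement. -/
structure Frame (q : ℕ) (e f : Fin n → F) (d : Fin m → Fin n → F) : Prop where
  hee : Cfsg.hermForm n F q e e = 0
  hff : Cfsg.hermForm n F q f f = 0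
  hfe : Cfsg.hermForm n F q f e = 1
  hde : ∀ i, Cfsg.hermForm n F q (d i) e = 0
  hdf : ∀ i, Cfsg.hermForm n F q (d i) f = 0
  hdd : ∀ i j, Cfsg.hermForm n F q (d i) (d j) = if i = j then 1 else 0
  expand : ∀ x, x = Cfsg.hermForm n F q x f • e + Cfsg.hermForm n F q x e • f +
    ∑ i, Cfsg.hermForm n F q x (d i) • d i

/-- A combination of the frame vectors. -/
def comb (e f : V) (d : Fin m → V) (a b : F) (c : Fin m → F) : V := a • e + b • f + ∑ i, c i • d i

variable (hc : Ctx n q σ)
include hc

theorem q_two [Finite F] : 2 ≤ q := by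
  have h := Finite.one_lt_card (α := F)
  rw [hc.card] at h
  by_contra hq
  interval_cases q <;> simp at h

/-- A generator of the norm-one group in the form `σ g / g`. -/
theorem exists_zeta [Finite F] : ∃ g ζ : F, g ≠ 0 ∧ σ g = ζ * g ∧ ζ * σ ζ = 1 ∧ ζ ^ 2 ≠ 1 ∧ ζ ≠ 1 ∧
    (q ≠ 2 → ζ ^ 3 ≠ 1) := by
  have hq := q_two hc
  obtain ⟨g, hg⟩ := IsCyclic.exists_generator (α := Fˣ)
  have hord : orderOf g = q ^ 2 - 1 := by
    rw [orderOf_eq_card_of_forall_mem_zpowers hg, Nat.card_units, hc.card]
  have hk : ∀ k, 0 < k → k ≤ q → ((g : F) ^ (q - 1)) ^ k ≠ 1 := by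
    intro k hk0 hkq h
    rw [← pow_mul] at h
    have h1 := Nat.le_of_dvd (Nat.mul_pos (by omega) hk0)
      (orderOf_dvd_of_pow_eq_one (x := g) (n := (q - 1) * k) (Units.ext (by rw [Units.val_pow_eq_pow_val, h]; rfl)))
    rw [hord] at h1
    obtain ⟨r, rfl⟩ := Nat.exists_eq_add_of_le hq
    have h2 : (2 + r - 1) * k ≤ (r + 1) * (2 + r) :=
      Nat.mul_le_mul (by omega) hkq
    have h3 : (2 + r) ^ 2 = (r + 1) * (2 + r) + r + 2 := by ring
    omega
  have hs : σ (g : F) = (g : F) ^ (q - 1) * g := by rw [← pow_succ, Nat.sub_add_cancel (by omega), hc.pow]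
  refine ⟨g, (g : F) ^ (q - 1), g.ne_zero, hs, ?_, hk 2 (by omega) hq, ?_, fun h2 => hk 3 (by omega) (by omega)⟩
  · rw [hc.pow, ← pow_succ', ← pow_mul, show (q - 1) * (q + 1) = q ^ 2 - 1 by
      obtain ⟨r, rfl⟩ := Nat.exists_eq_add_of_le hq
      have h3 : (2 + r) ^ 2 = (r + 1) * (2 + r + 1) + 1 := by ring
      rw [show 2 + r - 1 = r + 1 by omega]; omega, ← hord, ← Units.val_pow_eq_pow_val, pow_orderOf_eq_one]
    rfl
  · simpa using hk 1 one_pos (by omega)

theorem comb_f {e f : V} {d : Fin m → V} (hb : Frame q e f d) (a b : F) (c : Fin m → F) :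
    hh (comb e f d a b c) f = a := by
  simp [comb, hc.form.add_left, hc.form.smul_left, herm_sum_left hc.form, hb.hff, hb.hdf,
    herm_eq_one_symm hc.form hb.hfe]

theorem comb_e {e f : V} {d : Fin m → V} (hb : Frame q e f d) (a b : F) (c : Fin m → F) :
    hh (comb e f d a b c) e = b := by
  simp [comb, hc.form.add_left, hc.form.smul_left, herm_sum_left hc.form, hb.hee, hb.hde, hb.hfe]

theorem comb_d {e f : V} {d : Fin m → V} (hb : Frame q e f d) (a b : F) (c : Fin m → F) (j : Fin m) :
    hh (comb e f d a b c) (d j) = c j := by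
  simp [comb, hc.form.add_left, hc.form.smul_left, herm_sum_left hc.form, herm_eq_zero_symm hc.form (hb.hde j),
    herm_eq_zero_symm hc.form (hb.hdf j), hb.hdd]

theorem herm_frame {e f : V} {d : Fin m → V} (hb : Frame q e f d) (x y : V) :
    hh x y = hh x f * σ (hh y e) + hh x e * σ (hh y f) + ∑ i, hh x (d i) * σ (hh y (d i)) := by
  conv_lhs => rw [hb.expand y]
  simp [herm_add_right hc.form, herm_smul_right hc.form, herm_sum_right hc.form, mul_comm]
  ring

theorem frame_card {e f : V} {d : Fin m → V} (hb : Frame q e f d) : n = m + 2 := by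
  let E : V ≃ₗ[F] (Fin 2 ⊕ Fin m → F) :=
    { toFun := fun x => Sum.elim ![hh x f, hh x e] fun i => hh x (d i)
      invFun := fun c => comb e f d (c (Sum.inl 0)) (c (Sum.inl 1)) fun i => c (Sum.inr i)
      map_add' := fun x y => funext fun k => by
        rcases k with k | k
        · fin_cases k <;> simp [hc.form.add_left]
        · simp [hc.form.add_left]
      map_smul' := fun r x => funext fun k => by
        rcases k with k | k
        · fin_cases k <;> simp [hc.form.smul_left]
        · simp [hc.form.smul_left]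
      left_inv := fun x => by simp only [Sum.elim_inl, Sum.elim_inr]; exact (hb.expand x).symm
      right_inv := fun c => funext fun k => by
        rcases k with k | k
        · fin_cases k <;> simp [comb_f hc hb, comb_e hc hb]
        · simp [comb_d hc hb] }
  have := E.finrank_eq
  simp at this
  omega

theorem exists_frame [Finite F] (hn : 3 ≤ n) {e f : V} (hee : hh e e = 0) (hff : hh f f = 0) (hfe : hh f e = 1) :
    ∃ (m : ℕ) (d : Fin m → V), Frame q e f d ∧ n = m + 2 := by
  have hef := herm_eq_one_symm hc.form hfe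
  let W : Submodule F V :=
    LinearMap.ker (Cfsg.Lib.Classical.leftLin hc.form e) ⊓ LinearMap.ker (Cfsg.Lib.Classical.leftLin hc.form f)
  have hW : ∀ x, x ∈ W ↔ hh x e = 0 ∧ hh x f = 0 := fun x => Iff.rfl
  have hproj : ∀ x : V, x - hh x f • e - hh x e • f ∈ W := fun x => (hW _).2
    ⟨by simp [herm_sub_left hc.form, hc.form.smul_left, hee, hfe],
     by simp [herm_sub_left hc.form, hc.form.smul_left, hff, hef]⟩
  have hnd : NondegOnH hh W := by
    intro w hw hw0
    obtain ⟨x, hx⟩ := (hc.form.nondegenerate w hw0).2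
    refine ⟨_, hproj x, ?_⟩
    rwa [herm_sub_right hc.form, herm_sub_right hc.form, herm_smul_right hc.form, herm_smul_right hc.form,
      ((hW w).1 hw).1, ((hW w).1 hw).2, mul_zero, mul_zero, sub_zero, sub_zero]
  have : Fintype F := Fintype.ofFinite F
  obtain ⟨d, hd, hdd⟩ := Cfsg.Lib.Classical.PSLAut.exists_orthonormal hc.form _ W hnd rfl
  have hli : LinearIndependent F fun i => (⟨d i, hd i⟩ : W) := by
    refine Fintype.linearIndependent_iff.2 fun c h i => ?_
    have h2 := congrArg (fun u : W => hh (u : V) (d i)) h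
    simp [herm_sum_left hc.form, hc.form.smul_left, hdd, herm_zero_left hc.form] at h2
    exact h2
  have hspan : ∀ w ∈ W, w = ∑ i, hh w (d i) • d i := by
    intro w hw
    have hs := hli.span_eq_top_of_card_eq_finrank' (Fintype.card_fin _)
    obtain ⟨c, hc'⟩ := (Submodule.mem_span_range_iff_exists_fun F).1
      (hs ▸ Submodule.mem_top : (⟨w, hw⟩ : W) ∈ Submodule.span F (Set.range fun i => (⟨d i, hd i⟩ : W)))
    have h1 : w = ∑ i, c i • d i := by simpa using (congrArg Subtype.val hc').symm
    refine h1.trans (Finset.sum_congr rfl fun i _ => ?_)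
    simp [h1, herm_sum_left hc.form, hc.form.smul_left, hdd]
  have hb : Frame q e f d := ⟨hee, hff, hfe, fun i => ((hW _).1 (hd i)).1, fun i => ((hW _).1 (hd i)).2, hdd,
    fun x => by
      have h := hspan _ (hproj x)
      simp only [herm_sub_left hc.form, hc.form.smul_left, herm_eq_zero_symm hc.form ((hW _).1 (hd _)).1,
        herm_eq_zero_symm hc.form ((hW _).1 (hd _)).2, mul_zero, sub_zero] at h
      rw [← h]
      abel⟩
  exact ⟨_, d, hb, frame_card hc hb⟩

/-- Diagonal elements of `SU` with respect to a frame. -/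
theorem exists_diag {e f : V} {d : Fin m → V} (hb : Frame q e f d) {lam : F} (hl : lam ≠ 0) {α : Fin m → F}
    (hα : ∀ i, α i * σ (α i) = 1) (hdet : lam * (σ lam)⁻¹ * ∏ i, α i = 1) :
    ∃ t : SUn, act t e = lam • e ∧ act t f = (σ lam)⁻¹ • f ∧ ∀ i, act t (d i) = α i • d i := by
  let E : V ≃ₗ[F] (Fin 2 ⊕ Fin m → F) :=
    { toFun := fun x => Sum.elim ![hh x f, hh x e] fun i => hh x (d i)
      invFun := fun c => comb e f d (c (Sum.inl 0)) (c (Sum.inl 1)) fun i => c (Sum.inr i)
      map_add' := fun x y => funext fun k => by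
        rcases k with k | k
        · fin_cases k <;> simp [hc.form.add_left]
        · simp [hc.form.add_left]
      map_smul' := fun r x => funext fun k => by
        rcases k with k | k
        · fin_cases k <;> simp [hc.form.smul_left]
        · simp [hc.form.smul_left]
      left_inv := fun x => by simp only [Sum.elim_inl, Sum.elim_inr]; exact (hb.expand x).symm
      right_inv := fun c => funext fun k => by
        rcases k with k | k
        · fin_cases k <;> simp [comb_f hc hb, comb_e hc hb]
        · simp [comb_d hc hb] }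
  let D : Matrix (Fin 2 ⊕ Fin m) (Fin 2 ⊕ Fin m) F := Matrix.diagonal (Sum.elim ![lam, (σ lam)⁻¹] α)
  let T : V →ₗ[F] V := E.symm.toLinearMap ∘ₗ Matrix.toLin' D ∘ₗ E.toLinearMap
  have hT : ∀ x, T x = comb e f d (lam * hh x f) ((σ lam)⁻¹ * hh x e) fun i => α i * hh x (d i) := fun x => by
    simp [T, E, D, Matrix.toLin'_apply, Matrix.mulVec_diagonal]
  have hdetT : LinearMap.det T = 1 := by
    have := LinearMap.det_conj (Matrix.toLin' D) E.symm
    rw [LinearEquiv.symm_symm] at this
    rw [show T = E.symm.toLinearMap ∘ₗ Matrix.toLin' D ∘ₗ E.toLinearMap from rfl, this, LinearMap.det_toLin',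
      Matrix.det_diagonal, Fintype.prod_sum_type, Fin.prod_univ_two]
    simpa using hdet
  have hiso : ∀ x y, hh (T x) (T y) = hh x y := by
    intro x y
    rw [herm_frame hc hb (T x) (T y), herm_frame hc hb x y, hT, hT]
    simp only [comb_f hc hb, comb_e hc hb, comb_d hc hb, map_mul, map_inv₀, hc.form.involutive]
    have hσl : σ lam ≠ 0 := (map_ne_zero σ).2 hl
    congr 1
    · field_simp
    · refine Finset.sum_congr rfl fun i _ => ?_
      linear_combination (hh x (d i) * σ (hh y (d i))) * hα i
  refine ⟨mkSU (LinearMap.toMatrix' T) (by rw [LinearMap.det_toMatrix', hdetT])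
    (fun x y => by rw [LinearMap.toMatrix'_mulVec, LinearMap.toMatrix'_mulVec, hiso]), ?_, ?_, fun i => ?_⟩ <;>
    rw [act_mkSU, LinearMap.toMatrix'_mulVec, hT]
  · simp [comb, hb.hee, herm_eq_one_symm hc.form hb.hfe, herm_eq_zero_symm hc.form (hb.hde _)]
  · simp [comb, hb.hff, hb.hfe, herm_eq_zero_symm hc.form (hb.hdf _)]
  · simp [comb, hb.hde, hb.hdf, hb.hdd]

end Cfsg.Lib.Classical.PSUAut
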