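/-
An automorphism of `PSU_n(q)` maps transvection groups to transvection groups.
-/
import Mathlib
import Cfsg.Agent.Lib.Classical.PSUAut.Frame

set_option autoImplicit false

open scoped Classical Pointwise

namespace Cfsg.Lib.Classical.PSUAut

open Matrix
open Cfsg.Lib.Classical (herm_add_right herm_smul_right herm_zero_left herm_zero_right herm_self_fixed
  herm_eq_zero_symm herm_eq_one_symm herm_sub_left herm_sub_right exists_trace_eq exists_skew)
open scoped MatrixGroups

variable {F : Type*} [Field F] {n q : ℕ} {σ : F ≃+* F}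

set_option quotPrecheck false in
local notation "V" => (Fin n → F)
set_option quotPrecheck false in
local notation "hh" => (Cfsg.hermForm n F q)
set_option quotPrecheck false in
local notation "SUn" => (↥(Cfsg.SU n F q))
set_option quotPrecheck false in
local notation "PU" => (Cfsg.PSU n F q)

variable (q) in
/-- The unipotent radical of the stabiliser of the line through `e`. -/
def Qr (e : V) : Subgroup SUn where
  carrier := {A | act A e = e ∧ ∀ x, hh x e = 0 → ∃ c : F, act A x = x + c • e}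
  one_mem' := ⟨act_one e, fun x _ => ⟨0, by rw [act_one, zero_smul, add_zero]⟩⟩
  mul_mem' {a b} ha hb := by
    refine ⟨by rw [act_mul, hb.1, ha.1], fun x hx => ?_⟩
    obtain ⟨c, hc⟩ := hb.2 x hx
    obtain ⟨d, hd⟩ := ha.2 x hx
    exact ⟨d + c, by rw [act_mul, hc, act_add, act_smul, ha.1, hd, add_assoc, add_smul]⟩
  inv_mem' {a} ha := by
    have he : act a⁻¹ e = e := by conv_lhs => rw [← ha.1, act_inv]
    refine ⟨he, fun x hx => ?_⟩
    obtain ⟨c, hc⟩ := ha.2 x hx
    refine ⟨-c, ?_⟩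
    have := act_inv a x
    rw [hc, act_add, act_smul, he] at this
    rw [neg_smul, ← sub_eq_add_neg, eq_sub_iff_add_eq, this]

variable (q) in
/-- The image of the radical in `PSU`. -/
def Qb (e : V) : Subgroup PU := (Qr q e).map (QuotientGroup.mk' _)

variable (q) in
/-- The stabiliser of the line through `e`. -/
def Pst (e : V) : Subgroup SUn where
  carrier := {A | ∃ r : F, r ≠ 0 ∧ act A e = r • e}
  one_mem' := ⟨1, one_ne_zero, by rw [act_one, one_smul]⟩
  mul_mem' := by
    rintro a b ⟨r, hr0, hr⟩ ⟨s, hs0, hs⟩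
    exact ⟨s * r, mul_ne_zero hs0 hr0, by rw [act_mul, hs, act_smul, hr, smul_smul]⟩
  inv_mem' := by
    rintro a ⟨r, hr0, hr⟩
    refine ⟨r⁻¹, inv_ne_zero hr0, ?_⟩
    have := congrArg (act a⁻¹) hr
    rw [act_inv, act_smul] at this
    conv_rhs => rw [this, smul_smul, inv_mul_cancel₀ hr0, one_smul]

variable (q) in
/-- The stabiliser in `PSU`. -/
def Pb (e : V) : Subgroup PU := (Pst q e).map (QuotientGroup.mk' _)

theorem mk_mem_Qb {e : V} {A : SUn} (h : A ∈ Qr q e) : (QuotientGroup.mk A : PU) ∈ Qb q e := ⟨A, h, rfl⟩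

theorem mk_mem_Pb {e : V} {A : SUn} (h : A ∈ Pst q e) : (QuotientGroup.mk A : PU) ∈ Pb q e := ⟨A, h, rfl⟩

theorem Qr_le (e : V) : Qr q e ≤ Pst q e := fun _ h => ⟨1, one_ne_zero, by rw [h.1, one_smul]⟩

theorem Qb_le (e : V) : Qb q e ≤ Pb q e := Subgroup.map_mono (Qr_le e)

variable (hc : Ctx n q σ)
include hc

theorem EU_mem {e w : V} {z : F} (he : hh e e = 0) (hw : hh w e = 0) (hz : z + σ z + hh w w = 0) :
    EU e w z ∈ Qr q e := by
  refine ⟨by rw [EU_act hc he hw hz, he, herm_eq_zero_symm hc.form hw]; simp,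
    fun x hx => ⟨-hh x w, ?_⟩⟩
  rw [EU_act hc he hw hz, hx]
  module

theorem TU_mem {e : V} (he : hh e e = 0) {c : F} (hcs : c + σ c = 0) : TU e c ∈ Qr q e := by
  rw [← EU_zero hc he hcs]
  exact EU_mem hc he (herm_zero_left hc.form _) (by rw [herm_zero_left hc.form, add_zero, hcs])

theorem EU_apply_f {e f w : V} {z : F} (he : hh e e = 0) (hfe : hh f e = 1) (hw : hh w e = 0) (hwf : hh w f = 0)
    (hz : z + σ z + hh w w = 0) : act (EU (q := q) e w z) f = f + w + z • e := by
  rw [EU_act hc he hw hz, hfe, herm_eq_zero_symm hc.form hwf]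
  module

theorem EU_apply_perp {e f w x : V} {z : F} (he : hh e e = 0) (hw : hh w e = 0)
    (hz : z + σ z + hh w w = 0) (hx : hh x e = 0) (_ : hh f f = 0) :
    act (EU (q := q) e w z) x = x - hh x w • e := by
  rw [EU_act hc he hw hz, hx]
  module

theorem EU_mul {e w w' : V} {z z' : F} (he : hh e e = 0) (hw : hh w e = 0) (hz : z + σ z + hh w w = 0)
    (hw' : hh w' e = 0) (hz' : z' + σ z' + hh w' w' = 0) :
    (EU e w z * EU e w' z' : SUn) = EU e (w + w') (z + z' - hh w' w) := by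
  refine ext_su fun x => ?_
  rw [act_mul, EU_act hc he hw' hz', EU_act hc he hw hz, EU_act hc he (by rw [hc.form.add_left, hw, hw', add_zero])
    (by
      simp only [map_sub, map_add, hc.form.add_left, herm_add_right hc.form]
      rw [← hc.form.herm w w']
      linear_combination hz + hz')]
  simp only [herm_sub_left hc.form, hc.form.add_left, hc.form.smul_left, herm_add_right hc.form, he, hw', hw,
    herm_eq_zero_symm hc.form hw]
  module

theorem EU_param {e f : V} (he : hh e e = 0) (hff : hh f f = 0) (hfe : hh f e = 1) {A : SUn} (hA : A ∈ Qr q e) :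
    ∃ w z, hh w e = 0 ∧ hh w f = 0 ∧ z + σ z + hh w w = 0 ∧ A = EU e w z := by
  have hef := herm_eq_one_symm hc.form hfe
  have h1 : hh (act A f) e = 1 := by
    conv_lhs => arg 5; rw [← hA.1]
    rw [iso, hfe]
  obtain ⟨z, hzdef⟩ : ∃ z, z = hh (act A f) f := ⟨_, rfl⟩
  obtain ⟨w, hwdef⟩ : ∃ w, w = act A f - f - z • e := ⟨_, rfl⟩
  have hwe : hh w e = 0 := by simp [hwdef, herm_sub_left hc.form, hc.form.smul_left, h1, hfe, he]
  have hwf : hh w f = 0 := by
    simp [hwdef, herm_sub_left hc.form, hc.form.smul_left, hff, hef, ← hzdef]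
  have hAf : act A f = f + w + z • e := by rw [hwdef]; abel
  have hz : z + σ z + hh w w = 0 := by
    have h := iso A f f
    rw [hff, hAf] at h
    simp only [hc.form.add_left, hc.form.smul_left, herm_add_right hc.form, herm_smul_right hc.form, hff, he, hfe,
      hef, hwe, hwf, herm_eq_zero_symm hc.form hwe, herm_eq_zero_symm hc.form hwf] at h
    linear_combination h
  refine ⟨w, z, hwe, hwf, hz, ext_su fun x => ?_⟩
  obtain ⟨c, hcx⟩ := hA.2 (x - hh x e • f) (by simp [herm_sub_left hc.form, hc.form.smul_left, hfe])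
  have h2 : hh (act A (x - hh x e • f)) (act A f) = hh (x - hh x e • f) f := iso _ _ _
  rw [hcx, hAf] at h2
  simp only [hc.form.add_left, hc.form.smul_left, herm_add_right hc.form, herm_smul_right hc.form,
    herm_sub_left hc.form, he, hff, hfe, hef, hwe, herm_eq_zero_symm hc.form hwe,
    herm_eq_zero_symm hc.form hwf] at h2
  have hcc : c = -hh x w := by linear_combination h2
  have h3 : act A x = x - hh x e • f + c • e + hh x e • act A f := by
    rw [← hcx, ← act_smul, ← act_add, sub_add_cancel]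
  rw [h3, hAf, EU_act hc he hwe hz, hcc]
  module

theorem EU_inj {e f w w' : V} {z z' : F} (he : hh e e = 0) (hfe : hh f e = 1) (he0 : e ≠ 0)
    (hw : hh w e = 0) (hwf : hh w f = 0) (hz : z + σ z + hh w w = 0)
    (hw' : hh w' e = 0) (hwf' : hh w' f = 0) (hz' : z' + σ z' + hh w' w' = 0)
    (h : (EU e w z : SUn) = EU e w' z') : w = w' ∧ z = z' := by
  have h1 : act (EU e w z : SUn) f = act (EU e w' z' : SUn) f := by rw [h]
  rw [EU_apply_f hc he hfe hw hwf hz, EU_apply_f hc he hfe hw' hwf' hz', add_assoc, add_assoc,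
    add_right_inj] at h1
  have h2 := congrArg (fun u => hh u f) h1
  simp only [hc.form.add_left, hc.form.smul_left, hwf, hwf', herm_eq_one_symm hc.form hfe, mul_one, zero_add] at h2
  subst h2
  exact ⟨add_right_cancel h1, rfl⟩

theorem Qr_pow {p : ℕ} [CharP F p] [Finite F] {e : V} (he0 : e ≠ 0) (he : hh e e = 0) {A : SUn} (hA : A ∈ Qr q e) :
    A ^ (p ^ 2) = 1 := by
  obtain ⟨f, hff, hfe⟩ := exists_partner hc he0 he
  obtain ⟨w, z, hwe, hwf, hz, rfl⟩ := EU_param hc he hff hfe hA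
  have hk : ∀ k : ℕ, ∃ z', z' + σ z' + hh ((k : F) • w) ((k : F) • w) = 0 ∧
      (EU e w z : SUn) ^ k = EU e ((k : F) • w) z' := by
    intro k
    induction k with
    | zero =>
      refine ⟨0, by simp [herm_zero_left hc.form], ?_⟩
      rw [pow_zero, Nat.cast_zero, zero_smul, EU_zero hc he (by simp), TU_zero hc he]
    | succ k ih =>
      obtain ⟨z', hz', hp⟩ := ih
      have hw' : hh ((k : F) • w) e = 0 := by rw [hc.form.smul_left, hwe, mul_zero]
      refine ⟨z' + z - hh w ((k : F) • w), ?_, ?_⟩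
      · rw [Nat.cast_succ, add_smul, one_smul]
        simp only [map_sub, map_add, hc.form.add_left, herm_add_right hc.form]
        rw [← hc.form.herm ((k : F) • w) w]
        linear_combination hz + hz'
      · rw [pow_succ, hp, EU_mul hc he hw' hz' hwe hz, Nat.cast_succ, add_smul, one_smul]
  obtain ⟨z', hz', hp⟩ := hk p
  rw [CharP.cast_eq_zero, zero_smul] at hp hz'
  rw [herm_zero_left hc.form, add_zero] at hz'
  rw [EU_zero hc he hz'] at hp
  have hT : ∀ k : ℕ, (TU e z' : SUn) ^ k = TU e ((k : F) * z') := by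
    intro k
    induction k with
    | zero => rw [pow_zero, Nat.cast_zero, zero_mul, TU_zero hc he]
    | succ k ih =>
      rw [pow_succ, ih, TU_add hc he (by
        rw [map_mul, map_natCast]; linear_combination (k : F) * hz') hz', Nat.cast_succ, add_mul, one_mul]
  rw [pow_two, pow_mul, hp, hT, CharP.cast_eq_zero, zero_mul, TU_zero hc he]

theorem Qb_isPGroup (p : ℕ) [CharP F p] [Finite F] {e : V} (he0 : e ≠ 0) (he : hh e e = 0) :
    IsPGroup p (Qb q e) := by
  rintro ⟨_, A, hA, rfl⟩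
  refine ⟨2, Subtype.ext ?_⟩
  rw [SubmonoidClass.coe_pow, ← map_pow, Qr_pow hc he0 he hA, map_one]
  rfl

theorem comm_PT_iff [Finite F] (hn : 3 ≤ n) {e : V} (he0 : e ≠ 0) (he : hh e e = 0) {c : F} (hcs : c + σ c = 0)
    (hc0 : c ≠ 0) (z : SUn) :
    Commute (QuotientGroup.mk z : PU) (PT e c) ↔ ∃ r : F, r * σ r = 1 ∧ act z e = r • e := by
  have : Fintype F := Fintype.ofFinite F
  have hz : (QuotientGroup.mk z : PU) * PT e c * (QuotientGroup.mk z : PU)⁻¹ = PT (act z e) c := by
    rw [PT, PT, ← QuotientGroup.mk_mul, ← QuotientGroup.mk_inv, ← QuotientGroup.mk_mul, conj_TU hc z he hcs]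
  rw [commute_iff_eq, ← mul_inv_eq_iff_eq_mul, hz]
  constructor
  · intro h
    obtain ⟨r, hr, hcr⟩ := PT_eq_param hc hn (iso_self hc z he) he hcs hcs hc0 (act_ne_zero z he0) h
    exact ⟨r, (mul_right_cancel₀ hc0 (by rw [← hcr, one_mul])), hr⟩
  · rintro ⟨r, hr, hre⟩
    rw [hre, PT, PT, TU_smul hc he r hcs, hr, one_mul]

/-- The centraliser of the radical is the transvection group. -/
theorem eq_PT_of_comm [Finite F] (hn : 3 ≤ n) {e : V} (he0 : e ≠ 0) (he : hh e e = 0) {y : PU}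
    (h : ∀ u ∈ Qb q e, Commute y u) : ∃ c : F, c + σ c = 0 ∧ y = PT e c := by
  have : Fintype F := Fintype.ofFinite F
  obtain ⟨z, rfl⟩ := QuotientGroup.mk_surjective y
  obtain ⟨δ, hδ0, hδ⟩ := exists_skew hc.form.ne_refl hc.form.involutive
  have hδs : δ + σ δ = 0 := by rw [hδ, add_neg_cancel]
  obtain ⟨lam, hlam, hze⟩ := (comm_PT_iff hc hn he0 he hδs hδ0 z).1 (h _ (mk_mem_Qb (TU_mem hc he hδs)))
  have hl0 : lam ≠ 0 := fun e0 => by simp [e0] at hlam
  obtain ⟨f, hff, hfe⟩ := exists_partner hc he0 he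
  have hef := herm_eq_one_symm hc.form hfe
  have hcomm : ∀ A ∈ Qr q e, ∀ x, act z (act A x) = act A (act z x) := by
    intro A hA
    obtain ⟨r, hr⟩ := (mk_eq_iff hc hn).1 (show (QuotientGroup.mk (A * z) : PU) = QuotientGroup.mk (z * A) from
      (h _ (mk_mem_Qb hA)).eq.symm)
    have h1 := hr e
    rw [act_mul, act_mul, hA.1, hze, act_smul, hA.1, smul_smul] at h1
    have hr1 : r = 1 := mul_right_cancel₀ hl0 (by rw [one_mul]; exact (smul_left_injective F he0 h1).symm)
    intro x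
    rw [← act_mul, ← act_mul, hr x, hr1, one_smul]
  have hzfe : hh (act z f) e = lam := by
    have h1 := iso z f e
    rw [hze, herm_smul_right hc.form, hfe] at h1
    linear_combination lam * h1 - hh (act z f) e * hlam
  have hzw : ∀ w, hh w e = 0 → act z w = lam • w - hh (act z f) w • e + (lam * hh f w) • e := by
    intro w hwe
    obtain ⟨z', hz'⟩ := exists_trace_eq hc.form.ne_refl hc.form.involutive (a := -hh w w)
      (by rw [map_neg, herm_self_fixed hc.form])
    have hz'' : z' + σ z' + hh w w = 0 := by linear_combination hz'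
    have h1 := hcomm _ (EU_mem hc he hwe hz'') f
    rw [EU_act hc he hwe hz'', EU_act hc he hwe hz'', hfe, hzfe, one_smul, sub_eq_add_neg, ← neg_smul, act_add,
      act_add, act_add, act_smul, act_smul, hze] at h1
    linear_combination (norm := module) h1
  obtain ⟨k, hk⟩ : ∃ k, k = act z f - lam • f - hh (act z f) f • e := ⟨_, rfl⟩
  have hke : hh k e = 0 := by simp [hk, herm_sub_left hc.form, hc.form.smul_left, hzfe, hfe, he]
  have hkf : hh k f = 0 := by simp [hk, herm_sub_left hc.form, hc.form.smul_left, hff, hef]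
  have hzf : act z f = lam • f + k + hh (act z f) f • e := by rw [hk]; abel
  have hk0 : ∀ w, hh w e = 0 → hh w f = 0 → hh k w = 0 := by
    intro w hwe hwf
    have key : ∀ v, hh v e = 0 → hh v f = 0 → lam * hh v k = σ lam * hh k v := by
      intro v hve hvf
      have h1 := iso z v f
      rw [hzw v hve, herm_eq_zero_symm hc.form hvf, mul_zero, zero_smul, add_zero, hvf] at h1
      conv_lhs at h1 => rw [hzf]
      simp only [herm_sub_left hc.form, hc.form.smul_left, herm_add_right hc.form, herm_smul_right hc.form,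
        hc.form.add_left, hve, hvf, hef, herm_eq_zero_symm hc.form hvf, herm_eq_zero_symm hc.form hke, he,
        herm_eq_zero_symm hc.form hve] at h1
      linear_combination h1
    obtain ⟨x, hx0, hx⟩ := Cfsg.Lib.Classical.exists_nonfixed hc.form
    have h1 := key w hwe hwf
    have h2 := key (x • w) (by rw [hc.form.smul_left, hwe, mul_zero]) (by rw [hc.form.smul_left, hwf, mul_zero])
    rw [hc.form.smul_left, herm_smul_right hc.form] at h2
    have h3 : (σ x - x) * (σ lam * hh k w) = 0 := by linear_combination x * h1 - h2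
    exact (mul_eq_zero.1 ((mul_eq_zero.1 h3).resolve_left (sub_ne_zero.2 hx))).resolve_left ((map_ne_zero σ).2 hl0)
  have hk00 : k = 0 := by
    by_contra hne
    obtain ⟨x, hx⟩ := (hc.form.nondegenerate k hne).2
    refine hx ?_
    have h1 := hk0 (x - hh x f • e - hh x e • f) (by simp [herm_sub_left hc.form, hc.form.smul_left, he, hfe])
      (by simp [herm_sub_left hc.form, hc.form.smul_left, hff, hef])
    simpa [herm_sub_right hc.form, herm_smul_right hc.form, hke, hkf] using h1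
  rw [hk00, add_zero] at hzf
  obtain ⟨μ, hμ⟩ : ∃ μ, μ = hh (act z f) f := ⟨_, rfl⟩
  rw [← hμ] at hzf
  have hcs : μ / lam + σ (μ / lam) = 0 := by
    have h1 := iso z f f
    rw [hff] at h1
    rw [hzf] at h1
    simp only [hc.form.add_left, hc.form.smul_left, herm_add_right hc.form, herm_smul_right hc.form, hff, he, hfe,
      hef] at h1
    rw [map_div₀]
    field_simp [(map_ne_zero σ).2 hl0]
    linear_combination h1
  have hzw0 : ∀ w, hh w e = 0 → act z w = lam • w := by
    intro w hwe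
    rw [hzw w hwe, hzf, hc.form.add_left, hc.form.smul_left, hc.form.smul_left, herm_eq_zero_symm hc.form hwe]
    module
  refine ⟨μ / lam, hcs, (mk_eq_iff hc hn).2 ⟨lam⁻¹, fun x => ?_⟩⟩
  have hz : act z x = lam • x + (μ * hh x e) • e := by
    conv_lhs => rw [show x = (x - hh x e • f) + hh x e • f by abel]
    rw [act_add, act_smul, hzw0 _ (by simp [herm_sub_left hc.form, hc.form.smul_left, hfe]), hzf]
    module
  rw [TU_act hc he hcs, hz, smul_add, smul_smul, smul_smul, inv_mul_cancel₀ hl0, one_smul]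
  congr 2
  ring

theorem comm_Qr_TU {e : V} (he0 : e ≠ 0) (he : hh e e = 0) {c : F} (hcs : c + σ c = 0) {A : SUn} (hA : A ∈ Qr q e) :
    Commute A (TU e c) := by
  rw [commute_iff_eq, ← mul_inv_eq_iff_eq_mul, conj_TU hc A he hcs, hA.1]

theorem PT_ne_one [Finite F] (hn : 3 ≤ n) {v : V} (hv0 : v ≠ 0) (hv : hh v v = 0) {c : F} (hcs : c + σ c = 0)
    (hc0 : c ≠ 0) : (PT v c : PU) ≠ 1 := fun h => hc0 (by
  have : Fintype F := Fintype.ofFinite F
  exact PT_inj hc hn hv hv0 hcs (by simp) (h.trans (PT_zero hc hv).symm))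

theorem xb_iff [Finite F] (hn : 3 ≤ n) {e : V} (he0 : e ≠ 0) (he : hh e e = 0) {c : F} (hcs : c + σ c = 0)
    (hc0 : c ≠ 0) (y : PU) :
    (∃ d : F, d + σ d = 0 ∧ y = PT e d) ↔ Commute y (PT e c) ∧ ∀ u, Commute u (PT e c) → Commute u y := by
  constructor
  · rintro ⟨d, hds, rfl⟩
    refine ⟨by rw [commute_iff_eq, PT_add hc he hds hcs, PT_add hc he hcs hds, add_comm], fun u hu => ?_⟩
    by_cases hd0 : d = 0
    · rw [hd0, PT_zero hc he]; exact Commute.one_right u
    obtain ⟨z, rfl⟩ := QuotientGroup.mk_surjective u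
    exact (comm_PT_iff hc hn he0 he hds hd0 z).2 ((comm_PT_iff hc hn he0 he hcs hc0 z).1 hu)
  · rintro ⟨-, h⟩
    refine eq_PT_of_comm hc hn he0 he fun u hu => ?_
    obtain ⟨A, hA, rfl⟩ := hu
    exact (h _ ((comm_Qr_TU hc he0 he hcs hA).map _)).symm

/-- Transvection groups go to transvection groups. -/
theorem exists_image [Finite F] {p : ℕ} [Fact p.Prime] [CharP F p] (hn : 3 ≤ n) (β : MulAut PU) {e : V}
    (he0 : e ≠ 0) (he : hh e e = 0) :
    ∃ (v : V) (ψ : F → F), v ≠ 0 ∧ hh v v = 0 ∧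
      (∀ d, d + σ d = 0 → ψ d + σ (ψ d) = 0 ∧ β (PT e d) = PT v (ψ d)) ∧
      ∀ d', d' + σ d' = 0 → ∃ d, d + σ d = 0 ∧ β (PT e d) = PT v d' := by
  have : Fintype F := Fintype.ofFinite F
  obtain ⟨δ, hδ0, hδ⟩ := exists_skew hc.form.ne_refl hc.form.involutive
  have hδs : δ + σ δ = 0 := by rw [hδ, add_neg_cancel]
  obtain ⟨S, hS⟩ := (Qb_isPGroup hc p he0 he).exists_le_sylow
  have hX : PT e δ ∈ (S : Subgroup PU) := hS (mk_mem_Qb (TU_mem hc he hδs))
  have : Nontrivial (S : Subgroup PU) := ⟨⟨⟨_, hX⟩, 1, fun h => PT_ne_one hc hn he0 he hδs hδ0 (congrArg Subtype.val h)⟩⟩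
  have := S.isPGroup'.center_nontrivial
  obtain ⟨⟨⟨z, hzS⟩, hzc⟩, hz1⟩ := exists_ne (1 : Subgroup.center (S : Subgroup PU))
  have hzcomm : ∀ u ∈ (S : Subgroup PU), Commute z u := fun u hu =>
    (congrArg Subtype.val (Subgroup.mem_center_iff.1 hzc ⟨u, hu⟩)).symm
  obtain ⟨c, hcs, rfl⟩ := eq_PT_of_comm hc hn he0 he fun u hu => hzcomm u (hS hu)
  have hc0 : c ≠ 0 := by
    rintro rfl
    exact hz1 (Subtype.ext (Subtype.ext (PT_zero hc he)))
  obtain ⟨g, hg⟩ := MulAction.exists_smul_eq PU S (β • S)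
  have key : ∀ y : PU, y ∈ (S : Subgroup PU) → g⁻¹ * β y * g ∈ (S : Subgroup PU) := by
    intro y hy
    have h1 : β • y ∈ ((β • S : Sylow p PU) : Subgroup PU) := Subgroup.smul_mem_pointwise_smul y β _ hy
    rw [← hg, Sylow.coe_subgroup_smul] at h1
    have h2 := (Subgroup.mem_pointwise_smul_iff_inv_smul_mem).1 h1
    simpa [MulAut.smul_def, MulAut.conj_inv_apply, mul_assoc] using h2
  have key' : ∀ u ∈ (S : Subgroup PU), ∃ y ∈ (S : Subgroup PU), g⁻¹ * β y * g = u := by
    intro u hu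
    have h1 : MulAut.conj g • u ∈ ((g • S : Sylow p PU) : Subgroup PU) := by
      rw [Sylow.coe_subgroup_smul]
      exact Subgroup.smul_mem_pointwise_smul u _ _ hu
    rw [hg] at h1
    have h2 := (Subgroup.mem_pointwise_smul_iff_inv_smul_mem).1 h1
    refine ⟨_, h2, ?_⟩
    simp [MulAut.smul_def, mul_assoc]
  obtain ⟨c', hcs', hy'⟩ := eq_PT_of_comm hc hn he0 he (y := g⁻¹ * β (PT e c) * g) fun u hu => by
    obtain ⟨y, hy, rfl⟩ := key' u (hS hu)
    have h1 := ((hzcomm y hy).map β.toMonoidHom).map (MulAut.conj g⁻¹).toMonoidHom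
    simpa [mul_assoc] using h1
  obtain ⟨G, rfl⟩ := QuotientGroup.mk_surjective g
  have hβ : β (PT e c) = PT (act G e) c' := by
    rw [show (PT (act G e) c' : PU) = QuotientGroup.mk (TU (act G e) c') from rfl, ← conj_TU hc G he hcs', QuotientGroup.mk_mul, QuotientGroup.mk_mul, QuotientGroup.mk_inv,
      show (QuotientGroup.mk (TU e c') : PU) = PT e c' from rfl, ← hy']
    group
  have hv0 : act G e ≠ 0 := act_ne_zero G he0
  have hv : hh (act G e) (act G e) = 0 := iso_self hc G he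
  have hc0' : c' ≠ 0 := by
    rintro rfl
    rw [PT_zero hc hv, map_eq_one_iff β β.injective] at hβ
    exact PT_ne_one hc hn he0 he hcs hc0 hβ
  have hiff : ∀ y, (∃ d : F, d + σ d = 0 ∧ y = PT e d) ↔ ∃ d : F, d + σ d = 0 ∧ β y = PT (act G e) d := by
    intro y
    rw [xb_iff hc hn he0 he hcs hc0, xb_iff hc hn hv0 hv hcs' hc0', ← hβ]
    constructor
    · rintro ⟨h1, h2⟩
      refine ⟨h1.map β.toMonoidHom, fun u hu => ?_⟩
      have h3 := h2 (β.symm u) (by simpa using hu.map β.symm.toMonoidHom)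
      simpa using h3.map β.toMonoidHom
    · rintro ⟨h1, h2⟩
      refine ⟨by simpa using h1.map β.symm.toMonoidHom, fun u hu => ?_⟩
      simpa using (h2 (β u) (hu.map β.toMonoidHom)).map β.symm.toMonoidHom
  have hd : ∀ d : F, ∃ d' : F, d + σ d = 0 → d' + σ d' = 0 ∧ β (PT e d) = PT (act G e) d' := by
    intro d
    by_cases hds : d + σ d = 0
    · obtain ⟨d', h⟩ := (hiff _).1 ⟨d, hds, rfl⟩; exact ⟨d', fun _ => h⟩
    · exact ⟨0, fun h => absurd h hds⟩
  choose ψ hψ using hd
  refine ⟨act G e, ψ, hv0, hv, hψ, fun d' hd' => ?_⟩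
  obtain ⟨d, hds, h⟩ := (hiff (β.symm (PT (act G e) d'))).2 ⟨d', hd', by simp⟩
  exact ⟨d, hds, by rw [← h, MulEquiv.apply_symm_apply]⟩

theorem Qr_conj {e : V} {z A : SUn} (hz : z ∈ Pst q e) (hA : A ∈ Qr q e) : z * A * z⁻¹ ∈ Qr q e := by
  obtain ⟨r, hr0, hr⟩ := hz
  have hinv : act z⁻¹ e = r⁻¹ • e := by
    have := congrArg (act z⁻¹) hr
    rw [act_inv, act_smul] at this
    conv_rhs => rw [this, smul_smul, inv_mul_cancel₀ hr0, one_smul]
  refine ⟨by rw [act_mul, act_mul, hinv, act_smul, hA.1, act_smul, hr, smul_smul, inv_mul_cancel₀ hr0, one_smul],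
    fun x hx => ?_⟩
  obtain ⟨c, hcx⟩ := hA.2 (act z⁻¹ x) (by
    have h1 := iso z⁻¹ x e
    rw [hinv, herm_smul_right hc.form, hx] at h1
    exact (mul_eq_zero.1 h1).resolve_left ((map_ne_zero σ).2 (inv_ne_zero hr0)))
  exact ⟨c * r, by rw [act_mul, act_mul, hcx, act_add, act_smul, act_inv', hr, smul_smul]⟩

theorem mk_mem_Pb_iff [Finite F] (hn : 3 ≤ n) {e : V} {z : SUn} :
    (QuotientGroup.mk z : PU) ∈ Pb q e ↔ z ∈ Pst q e := by
  refine ⟨?_, mk_mem_Pb⟩
  rintro ⟨A, ⟨r, hr0, hr⟩, hA⟩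
  have : Fintype F := Fintype.ofFinite F
  obtain ⟨s, hs⟩ := (mk_eq_iff hc hn).1 hA
  refine ⟨s * r, mul_ne_zero ?_ hr0, by rw [hs, hr, smul_smul]⟩
  rintro rfl
  obtain ⟨x, hx, -, -⟩ := exists_perp_pair hc hn e e
  exact act_ne_zero z hx (by rw [hs x, zero_smul])

theorem mem_Qb_of_fix [Finite F] {p : ℕ} [Fact p.Prime] [CharP F p] (hn : 3 ≤ n) {e : V} (he0 : e ≠ 0)
    (he : hh e e = 0) {R : Subgroup PU} (hR : IsPGroup p R) (hRP : R ≤ Pb q e)
    (hN : ∀ z ∈ Pst q e, ∀ x ∈ R, (QuotientGroup.mk z : PU) * x * (QuotientGroup.mk z : PU)⁻¹ ∈ R)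
    (hQR : Qb q e ≤ R) : R ≤ Qb q e := by
  have : Fintype F := Fintype.ofFinite F
  intro y hy
  obtain ⟨z, rfl⟩ := QuotientGroup.mk_surjective y
  obtain ⟨lam, hlam0, hze⟩ := (mk_mem_Pb_iff hc hn).1 (hRP hy)
  obtain ⟨f, hff, hfe⟩ := exists_partner hc he0 he
  have hef := herm_eq_one_symm hc.form hfe
  obtain ⟨m, d, hb, hnm⟩ := exists_frame hc hn he hff hfe
  have hσl : σ lam ≠ 0 := (map_ne_zero σ).2 hlam0
  have hzfe : hh (act z f) e = (σ lam)⁻¹ := by
    have h1 := iso z f e
    rw [hze, herm_smul_right hc.form, hfe] at h1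
    field_simp
    linear_combination h1
  obtain ⟨μ, hμ⟩ : ∃ μ, μ = σ lam * hh (act z f) f := ⟨_, rfl⟩
  obtain ⟨w, hw⟩ : ∃ w, w = σ lam • act z f - f - μ • e := ⟨_, rfl⟩
  have hwe : hh w e = 0 := by
    simp [hw, herm_sub_left hc.form, hc.form.smul_left, hzfe, hfe, he, mul_inv_cancel₀ hσl]
  have hwf : hh w f = 0 := by simp [hw, hμ, herm_sub_left hc.form, hc.form.smul_left, hff, hef]
  have hzf : act z f = (σ lam)⁻¹ • (f + w + μ • e) := by
    rw [hw, show f + (σ lam • act z f - f - μ • e) + μ • e = σ lam • act z f by abel, smul_smul,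
      inv_mul_cancel₀ hσl, one_smul]
  have hμs : μ + σ μ + hh w w = 0 := by
    have h1 := iso z f f
    rw [hff, hzf, hc.form.smul_left, herm_smul_right hc.form] at h1
    have h2 := (mul_eq_zero.1 ((mul_eq_zero.1 h1).resolve_left (inv_ne_zero hσl))).resolve_left
      ((map_ne_zero σ).2 (inv_ne_zero hσl))
    simp only [hc.form.add_left, hc.form.smul_left, herm_add_right hc.form, herm_smul_right hc.form, hff, he, hfe,
      hef, hwe, hwf, herm_eq_zero_symm hc.form hwe, herm_eq_zero_symm hc.form hwf] at h2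
    linear_combination h2
  obtain ⟨G, hG⟩ : ∃ G : SUn, G = EU e w μ := ⟨_, rfl⟩
  have hGQ : G ∈ Qr q e := hG ▸ EU_mem hc he hwe hμs
  obtain ⟨t, ht⟩ : ∃ t : SUn, t = G⁻¹ * z := ⟨_, rfl⟩
  have htR : (QuotientGroup.mk t : PU) ∈ R := by
    rw [ht, QuotientGroup.mk_mul, QuotientGroup.mk_inv]
    exact mul_mem (inv_mem (hQR (mk_mem_Qb hGQ))) hy
  have hte : act t e = lam • e := by
    rw [ht, act_mul, hze, act_smul, show act G⁻¹ e = e from (inv_mem hGQ).1]
  have htf : act t f = (σ lam)⁻¹ • f := by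
    rw [ht, act_mul, hzf, act_smul, ← EU_apply_f hc he hfe hwe hwf hμs, ← hG, act_inv]
  have hscal : ∀ a : SUn, (QuotientGroup.mk a : PU) ∈ R → ∃ (k : ℕ) (s : F), ∀ x, act (a ^ p ^ k) x = s • x := by
    intro a ha
    obtain ⟨k, hk⟩ := hR ⟨_, ha⟩
    obtain ⟨s, hs⟩ := (mk_eq_iff hc hn).1 (show (QuotientGroup.mk (1 : SUn) : PU) = QuotientGroup.mk (a ^ p ^ k) by
      simpa [Subtype.ext_iff] using hk.symm)
    exact ⟨k, s, fun x => by rw [hs x, act_one]⟩
  have hpow : ∀ (a : SUn) (v : V) (r : F), act a v = r • v → ∀ k : ℕ, act (a ^ k) v = r ^ k • v := by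
    intro a v r h k
    induction k with
    | zero => rw [pow_zero, pow_zero, act_one, one_smul]
    | succ k ih => rw [pow_succ, act_mul, h, act_smul, ih, smul_smul, pow_succ']
  have hN1 : lam * σ lam = 1 := by
    obtain ⟨k, s, hs⟩ := hscal t htR
    have h1 := (hs e).symm.trans (hpow t e _ hte _)
    have h2 := (hs f).symm.trans (hpow t f _ htf _)
    have hf0 : f ≠ 0 := fun h0 => by rw [h0, herm_zero_left hc.form] at hfe; exact zero_ne_one hfe
    have e1 := (smul_left_injective F he0 h1).symm.trans (smul_left_injective F hf0 h2)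
    refine (iterateFrobenius F p k).injective ?_
    rw [map_one, iterateFrobenius_def, mul_pow, e1, ← mul_pow, inv_mul_cancel₀ hσl, one_pow]
  let H : Subgroup (V ≃ₗ[F] V) :=
    { carrier := {u | u e = e ∧ u f = f ∧ ∃ (a : SUn) (r : F), (QuotientGroup.mk a : PU) ∈ R ∧ ∀ x, u x = r • act a x}
      one_mem' := ⟨rfl, rfl, 1, 1, one_mem _, fun x => by rw [act_one, one_smul]; rfl⟩
      mul_mem' := by
        rintro u u' ⟨h1, h2, a, r, ha, hu⟩ ⟨h1', h2', a', r', ha', hu'⟩
        refine ⟨by rw [LinearEquiv.mul_apply, h1', h1], by rw [LinearEquiv.mul_apply, h2', h2], a * a', r * r',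
          by rw [QuotientGroup.mk_mul]; exact mul_mem ha ha', fun x => ?_⟩
        rw [LinearEquiv.mul_apply, hu, hu', act_smul, act_mul, smul_smul]
      inv_mem' := by
        rintro u ⟨h1, h2, a, r, ha, hu⟩
        have hr : r ≠ 0 := fun h0 => he0 (by rw [← h1, hu, h0, zero_smul])
        refine ⟨u.injective (by rw [h1]; exact u.apply_symm_apply e), u.injective (by rw [h2]; exact u.apply_symm_apply f),
          a⁻¹, r⁻¹, by rw [QuotientGroup.mk_inv]; exact inv_mem ha, fun x => u.injective ?_⟩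
        rw [hu (r⁻¹ • act a⁻¹ x), act_smul, act_inv', smul_smul, mul_inv_cancel₀ hr, one_smul]
        exact u.apply_symm_apply x }
  have hHp : IsPGroup p H := by
    rintro ⟨u, h1, h2, a, r, ha, hu⟩
    obtain ⟨k, s, hs⟩ := hscal a ha
    have hit : ∀ (j : ℕ) (x : V), (u ^ j) x = r ^ j • act (a ^ j) x := by
      intro j
      induction j with
      | zero => intro x; rw [pow_zero, pow_zero, pow_zero, act_one, one_smul]; rfl
      | succ j ih => intro x; rw [pow_succ, LinearEquiv.mul_apply, hu, map_smul, ih, smul_smul, pow_succ a, act_mul,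
          pow_succ r, mul_comm r]
    refine ⟨k, Subtype.ext (LinearEquiv.ext fun x => ?_)⟩
    have hfix : ∀ j : ℕ, (u ^ j) e = e := fun j => by
      induction j with
      | zero => rfl
      | succ j ih => rw [pow_succ, LinearEquiv.mul_apply, h1, ih]
    have he' := hfix (p ^ k)
    rw [hit, hs, smul_smul] at he'
    have hrs : r ^ p ^ k * s = 1 := smul_left_injective F he0 (show (r ^ p ^ k * s) • e = (1 : F) • e by rw [he', one_smul])
    show (u ^ p ^ k) x = x
    rw [hit, hs, smul_smul, hrs, one_smul]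
  let Wt := {x : V // hh x e = 0 ∧ hh x f = 0}
  letI : MulAction H Wt :=
    { smul := fun u x => ⟨u.1 x.1, by
        obtain ⟨⟨u, h1, h2, a, r, ha, hu⟩, ⟨x, hx1, hx2⟩⟩ := u, x
        have hr : r ≠ 0 := fun h0 => he0 (by rw [← h1, hu, h0, zero_smul])
        have hiso : ∀ y, u y = y → hh x y = 0 → hh (u x) y = 0 := fun y hy hxy => by
          rw [hu, hc.form.smul_left]
          conv_lhs => rw [← hy, hu]
          rw [herm_smul_right hc.form, iso, hxy, mul_zero, mul_zero]
        exact ⟨hiso e h1 hx1, hiso f h2 hx2⟩⟩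
      one_smul := fun _ => rfl
      mul_smul := fun _ _ _ => rfl }
  have hWd : ∀ i, hh (d i) e = 0 ∧ hh (d i) f = 0 := fun i => ⟨hb.hde i, hb.hdf i⟩
  have hm : 0 < m := by omega
  have hd0 : d ⟨0, hm⟩ ≠ 0 := fun h0 => by
    have h1 := hb.hdd ⟨0, hm⟩ ⟨0, hm⟩
    rw [h0, herm_zero_left hc.form, if_pos rfl] at h1
    exact zero_ne_one h1
  have hdvd : p ∣ Nat.card Wt := by
    let WS : AddSubgroup V :=
      { carrier := {x | hh x e = 0 ∧ hh x f = 0}
        add_mem' := fun {x y} hx hy => ⟨by rw [hc.form.add_left, hx.1, hy.1, add_zero], by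
          rw [hc.form.add_left, hx.2, hy.2, add_zero]⟩
        zero_mem' := ⟨herm_zero_left hc.form e, herm_zero_left hc.form f⟩
        neg_mem' := fun {x} hx => ⟨by rw [Cfsg.Lib.Classical.herm_neg_left hc.form, hx.1, neg_zero], by
          rw [Cfsg.Lib.Classical.herm_neg_left hc.form, hx.2, neg_zero]⟩ }
    have h1 : addOrderOf (⟨d ⟨0, hm⟩, hWd _⟩ : WS) = p := addOrderOf_eq_prime (Subtype.ext (by
      show p • d ⟨0, hm⟩ = 0
      rw [← Nat.cast_smul_eq_nsmul F, CharP.cast_eq_zero, zero_smul])) fun h0 => hd0 (congrArg Subtype.val h0)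
    exact h1 ▸ addOrderOf_dvd_natCard (⟨d ⟨0, hm⟩, hWd _⟩ : WS)
  obtain ⟨⟨w0, hw0⟩, hfix0, hne0⟩ := hHp.exists_fixed_point_of_prime_dvd_card_of_fixed_point Wt hdvd
    (a := (⟨0, herm_zero_left hc.form e, herm_zero_left hc.form f⟩ : Wt))
    (fun u => Subtype.ext (map_zero u.1))
  have hw00 : w0 ≠ 0 := fun h0 => hne0 (Subtype.ext h0.symm)
  let Fx : V → Prop := fun x => ∀ u : H, u.1 x = x
  have hFw : Fx w0 := fun u => congrArg Subtype.val (hfix0 u)
  have hFs : ∀ (r : F) x, Fx x → Fx (r • x) := fun r x hx u => by rw [map_smul, hx u]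
  have hFa : ∀ x y, Fx x → Fx y → Fx (x + y) := fun x y hx hy u => by rw [map_add, hx u, hy u]
  have hTU : ∀ v x δ', hh v v = 0 → hh v e = 0 → hh v f = 0 → δ' + σ δ' = 0 → Fx x →
      Fx (act (TU v δ' : SUn) x) := by
    intro v x δ' hvv hve hvf hδ' hx u
    obtain ⟨u, hu1, hu2, a, r, ha, hu⟩ := u
    obtain ⟨T, hT⟩ : ∃ T : SUn, T = TU v δ' := ⟨_, rfl⟩
    have hTe : act T e = e := by rw [hT, TU_act hc hvv hδ', herm_eq_zero_symm hc.form hve]; simp
    have hTf : act T f = f := by rw [hT, TU_act hc hvv hδ', herm_eq_zero_symm hc.form hvf]; simp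
    have hTe' : act T⁻¹ e = e := by conv_lhs => rw [← hTe, act_inv]
    have hTf' : act T⁻¹ f = f := by conv_lhs => rw [← hTf, act_inv]
    let u' : V ≃ₗ[F] V :=
      { toFun := fun y => act T⁻¹ (u (act T y))
        invFun := fun y => act T⁻¹ (u.symm (act T y))
        map_add' := fun y y' => by rw [act_add, map_add, act_add]
        map_smul' := fun c y => by rw [act_smul, map_smul, act_smul]; rfl
        left_inv := fun y => by simp only [act_inv', LinearEquiv.symm_apply_apply, act_inv]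
        right_inv := fun y => by simp only [act_inv', LinearEquiv.apply_symm_apply, act_inv] }
    have h' := hx ⟨u', by show act T⁻¹ (u (act T e)) = e; rw [hTe, hu1, hTe'],
      by show act T⁻¹ (u (act T f)) = f; rw [hTf, hu2, hTf'], T⁻¹ * a * T, r, by
        have := hN T⁻¹ ⟨1, one_ne_zero, by rw [hTe', one_smul]⟩ _ ha
        rw [← QuotientGroup.mk_inv, inv_inv] at this
        rwa [QuotientGroup.mk_mul, QuotientGroup.mk_mul], fun y => by
        show act T⁻¹ (u (act T y)) = _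
        rw [hu, act_smul, act_mul, act_mul]⟩
    have h'' : act T⁻¹ (u (act T x)) = x := h'
    rw [← hT]
    show u (act T x) = act T x
    conv_rhs => rw [← h'', act_inv']
  have hW : ∀ x, hh x e = 0 → hh x f = 0 → x = ∑ i, hh x (d i) • d i := fun x h1 h2 => by
    conv_lhs => rw [hb.expand x, h1, h2]
    simp
  obtain ⟨δ, hδ0, hδ⟩ := exists_skew hc.form.ne_refl hc.form.involutive
  have hδs : δ + σ δ = 0 := by rw [hδ, add_neg_cancel]
  have hmove : ∀ v x, hh v v = 0 → hh v e = 0 → hh v f = 0 → hh x v ≠ 0 → Fx x → Fx v := by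
    intro v x hvv hve hvf hxv hx
    have h1 := hFa _ _ (hTU v x δ hvv hve hvf hδs hx) (hFs (-1) _ hx)
    rw [TU_act hc hvv hδs, neg_one_smul, add_neg_cancel_comm] at h1
    have h2 := hFs (δ * hh x v)⁻¹ _ h1
    rwa [smul_smul, inv_mul_cancel₀ (mul_ne_zero hδ0 hxv), one_smul] at h2
  have hall : ∀ i, Fx (d i) := by
    obtain ⟨i0, hi0⟩ : ∃ i, hh w0 (d i) ≠ 0 := by
      by_contra hall
      push Not at hall
      exact hw00 (by rw [hW w0 hw0.1 hw0.2]; simp [hall])
    by_cases hm1 : ∀ j, j = i0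
    · intro i
      have e0 : hh w0 (d i0) • d i0 = w0 := by
        conv_rhs => rw [hW w0 hw0.1 hw0.2, Finset.sum_eq_single i0 (fun j _ hj => absurd (hm1 j) hj) (by simp)]
      have h1 := hFs (hh w0 (d i0))⁻¹ _ hFw
      rw [show (hh w0 (d i0))⁻¹ • w0 = d i0 by
        conv_lhs => arg 2; rw [← e0]
        rw [smul_smul, inv_mul_cancel₀ hi0, one_smul]] at h1
      rwa [hm1 i]
    push Not at hm1
    obtain ⟨j0, hj0⟩ := hm1
    obtain ⟨c, hcn⟩ := Cfsg.Lib.Classical.exists_norm_eq hc.form.ne_refl hc.form.involutive (a := (-1 : F)) (by simp)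
    obtain ⟨-, ζ, -, -, hζ, -, hζ1, -⟩ := exists_zeta hc
    have hc0 : c ≠ 0 := fun h0 => by simp [h0] at hcn
    have hiv : ∀ (c' : F) (i j : Fin m), i ≠ j → c' * σ c' = -1 →
        hh (d i + c' • d j) (d i + c' • d j) = 0 ∧ hh (d i + c' • d j) e = 0 ∧ hh (d i + c' • d j) f = 0 := by
      intro c' i j hij hc'
      simp [hc.form.add_left, hc.form.smul_left, herm_add_right hc.form, herm_smul_right hc.form, hb.hdd, hij,
        Ne.symm hij, hb.hde, hb.hdf]
      linear_combination hc'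
    have hcζ : (c * ζ) * σ (c * ζ) = -1 := by rw [map_mul]; linear_combination ζ * σ ζ * hcn - hζ
    obtain ⟨c1, hc1n, hc1⟩ : ∃ c1, c1 * σ c1 = -1 ∧ hh w0 (d i0 + c1 • d j0) ≠ 0 := by
      by_contra! hall
      have e1 := hall c hcn
      have e2 := hall (c * ζ) hcζ
      rw [herm_add_right hc.form, herm_smul_right hc.form] at e1 e2
      rw [map_mul] at e2
      have e3 : (σ ζ - 1) * (σ c * hh w0 (d j0)) = 0 := by linear_combination e2 - e1
      have hσζ : σ ζ ≠ 1 := fun h0 => hζ1 ((map_eq_one_iff σ σ.injective).1 h0)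
      have e4 := (mul_eq_zero.1 e3).resolve_left (sub_ne_zero.2 hσζ)
      rw [e4, add_zero] at e1
      exact hi0 e1
    obtain ⟨g1, g2, g3⟩ := hiv c1 i0 j0 hj0.symm hc1n
    have hv : Fx (d i0 + c1 • d j0) := hmove _ w0 g1 g2 g3 hc1 hFw
    have hc1ζ : (c1 * ζ) * σ (c1 * ζ) = -1 := by rw [map_mul]; linear_combination ζ * σ ζ * hc1n - hζ
    obtain ⟨g1, g2, g3⟩ := hiv (c1 * ζ) i0 j0 hj0.symm hc1ζ
    have hv' : Fx (d i0 + (c1 * ζ) • d j0) := by
      refine hmove _ _ g1 g2 g3 ?_ hv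
      simp [hc.form.add_left, hc.form.smul_left, herm_add_right hc.form, herm_smul_right hc.form, hb.hdd, hj0,
        hj0.symm]
      intro h0
      refine hζ1 ((map_eq_one_iff σ σ.injective).1 ?_)
      linear_combination σ ζ * hc1n - h0
    have hc10 : c1 ≠ 0 := fun h0 => by simp [h0] at hc1n
    have hdj : Fx (d j0) := by
      have h1 := hFs (c1 * (ζ - 1))⁻¹ _ (hFa _ _ hv' (hFs (-1) _ hv))
      rw [show d i0 + (c1 * ζ) • d j0 + (-1 : F) • (d i0 + c1 • d j0) = (c1 * (ζ - 1)) • d j0 by module, smul_smul,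
        inv_mul_cancel₀ (mul_ne_zero hc10 (sub_ne_zero.2 hζ1)), one_smul] at h1
      exact h1
    have hdi : Fx (d i0) := by
      have h1 := hFa _ _ hv (hFs (-c1) _ hdj)
      rwa [neg_smul, add_neg_cancel_right] at h1
    intro k
    by_cases hk : k = i0
    · rwa [hk]
    obtain ⟨g1, g2, g3⟩ := hiv c i0 k (Ne.symm hk) hcn
    have hv2 : Fx (d i0 + c • d k) := by
      refine hmove _ _ g1 g2 g3 ?_ hdi
      simp [herm_add_right hc.form, herm_smul_right hc.form, hb.hdd, Ne.symm hk]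
    have h1 := hFs c⁻¹ _ (hFa _ _ hv2 (hFs (-1) _ hdi))
    rwa [neg_one_smul, add_neg_cancel_comm, smul_smul, inv_mul_cancel₀ hc0, one_smul] at h1
  let u : V ≃ₗ[F] V :=
    { toFun := fun x => lam⁻¹ • act t x
      invFun := fun x => lam • act t⁻¹ x
      map_add' := fun x y => by rw [act_add, smul_add]
      map_smul' := fun c x => by rw [act_smul, smul_comm]; rfl
      left_inv := fun x => by simp [act_smul, act_inv, smul_smul, hlam0]
      right_inv := fun x => by simp [act_smul, act_inv', smul_smul, hlam0] }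
  have hue : u e = e := by show lam⁻¹ • act t e = e; rw [hte, smul_smul, inv_mul_cancel₀ hlam0, one_smul]
  have huf : u f = f := by
    show lam⁻¹ • act t f = f
    rw [htf, smul_smul, ← mul_inv, hN1, inv_one, one_smul]
  have huH : u ∈ H := ⟨hue, huf, t, lam⁻¹, htR, fun x => rfl⟩
  have hu1 : ∀ x, u x = x := by
    intro x
    conv_lhs => rw [hb.expand x]
    conv_rhs => rw [hb.expand x]
    simp only [map_add, map_smul, map_sum, hue, huf, fun i => hall i ⟨u, huH⟩]
  have : (QuotientGroup.mk z : PU) = QuotientGroup.mk G := by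
    refine ((mk_eq_iff hc hn).2 ⟨lam, fun x => ?_⟩).symm
    rw [show z = G * t by rw [ht, mul_inv_cancel_left], act_mul]
    have h2 : act t x = lam • x := by
      conv_rhs => rw [← hu1 x]
      show _ = lam • lam⁻¹ • act t x
      rw [smul_smul, mul_inv_cancel₀ hlam0, one_smul]
    rw [h2, act_smul]
  rw [this]
  exact mk_mem_Qb hGQ

theorem Qb_normal [Finite F] {e : V} {z : SUn} (hz : z ∈ Pst q e) {x : PU} (hx : x ∈ Qb q e) :
    (QuotientGroup.mk z : PU) * x * (QuotientGroup.mk z : PU)⁻¹ ∈ Qb q e := by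
  obtain ⟨A, hA, rfl⟩ := hx
  rw [show (QuotientGroup.mk' _ A : PU) = QuotientGroup.mk A from rfl, ← QuotientGroup.mk_mul,
    ← QuotientGroup.mk_inv, ← QuotientGroup.mk_mul]
  exact mk_mem_Qb (Qr_conj hc hz hA)

/-- The radical is the largest normal `p`-subgroup of the parabolic. -/
theorem le_Qb [Finite F] {p : ℕ} [Fact p.Prime] [CharP F p] (hn : 3 ≤ n) {e : V} (he0 : e ≠ 0) (he : hh e e = 0)
    {R : Subgroup PU} (hR : IsPGroup p R) (hRP : R ≤ Pb q e)
    (hN : ∀ z ∈ Pst q e, ∀ x ∈ R, (QuotientGroup.mk z : PU) * x * (QuotientGroup.mk z : PU)⁻¹ ∈ R) :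
    R ≤ Qb q e := by
  have hRN : R ≤ Subgroup.normalizer (Qb q e : Set PU) := by
    intro y hy
    obtain ⟨z, hz, rfl⟩ := hRP hy
    refine Subgroup.mem_normalizer_iff.2 fun x => ⟨fun hx => Qb_normal hc hz hx, fun hx => ?_⟩
    have h1 := Qb_normal hc (inv_mem hz) hx
    simpa [mul_assoc] using h1
  refine le_trans le_sup_left (mem_Qb_of_fix (p := p) hc hn he0 he (R := R ⊔ Qb q e) ?_ (sup_le hRP (Qb_le e)) ?_ le_sup_right)
  · exact hR.to_sup_of_normal_right' (Qb_isPGroup hc p he0 he) hRN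
  · intro z hz x hx
    have hle : R ⊔ Qb q e ≤ (R ⊔ Qb q e).comap (MulAut.conj (QuotientGroup.mk z : PU)).toMonoidHom :=
      sup_le (fun y hy => Subgroup.mem_sup_left (hN z hz y hy))
        (fun y hy => Subgroup.mem_sup_right (Qb_normal hc hz hy))
    exact hle hx

end Cfsg.Lib.Classical.PSUAut
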