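/-
Automorphisms of `PSU_n(q)`: every automorphism is inner-diagonal times a field automorphism.
-/
import Mathlib
import Cfsg.Agent.Lib.Classical.PSUAut.Image
import Cfsg.Agent.Lib.Classical.PSUAut.Aut
import Cfsg.Agent.Lib.Classical.SymplecticMatrix

set_option autoImplicit false

open scoped Classical

namespace Cfsg.Lib.Classical.PSUAut

open Matrix
open Cfsg.Lib.Classical (herm_add_right herm_smul_right herm_zero_left herm_zero_right herm_self_fixed
  herm_eq_zero_symm herm_eq_one_symm herm_sub_left herm_sub_right herm_neg_left exists_trace_eq exists_skew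
  exists_norm_eq)
open scoped MatrixGroups

variable {F : Type*} [Field F] {n q m : ℕ} {σ : F ≃+* F}

set_option quotPrecheck false in
local notation "V" => (Fin n → F)
set_option quotPrecheck false in
local notation "hh" => (Cfsg.hermForm n F q)
set_option quotPrecheck false in
local notation "SUn" => (↥(Cfsg.SU n F q))
set_option quotPrecheck false in
local notation "PU" => (Cfsg.PSU n F q)
set_option quotPrecheck false in
local notation "GUn" => (↥(Cfsg.GU n F q))

variable (hc : Ctx n q σ)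
include hc

theorem exists_iso_vec [Finite F] (hn : 3 ≤ n) : ∃ e : V, hh e e = 0 ∧ e ≠ 0 := by
  obtain ⟨a, ha⟩ := exists_norm_eq hc.form.ne_refl hc.form.involutive (a := (-1 : F)) (by simp)
  refine ⟨Pi.single ⟨0, by omega⟩ 1 + a • Pi.single ⟨1, by omega⟩ 1, ?_, fun h => ?_⟩
  · have hq : (0 : F) ^ q = 0 := by rw [← hc.pow, map_zero]
    show ∑ i, _ * _ ^ q = (0 : F)
    rw [Finset.sum_eq_add (a := (⟨0, by omega⟩ : Fin n)) (b := ⟨1, by omega⟩) (by simp)
      (fun i _ hi => by simp [hi.1, hi.2]) (by simp) (by simp)]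
    simp [← hc.pow, ha]
  · have := congrFun h ⟨0, by omega⟩
    simp at this

theorem exists_z [Finite F] (w : V) : ∃ z : F, z + σ z + hh w w = 0 := by
  obtain ⟨z, hz⟩ := exists_trace_eq hc.form.ne_refl hc.form.involutive (a := -hh w w)
    (by rw [map_neg, herm_self_fixed hc.form])
  exact ⟨z, by linear_combination hz⟩

theorem conj_EU (g : SUn) {e w : V} {z : F} (he : hh e e = 0) (hw : hh w e = 0) (hz : z + σ z + hh w w = 0) :
    g * EU e w z * g⁻¹ = (EU (act g e) (act g w) z : SUn) := by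
  rw [mul_inv_eq_iff_eq_mul]
  refine ext_su fun x => ?_
  rw [act_mul, act_mul, EU_act hc he hw hz, EU_act hc (iso_self hc g he) (by rw [iso, hw]) (by rw [iso, hz]), iso, iso,
    sub_eq_add_neg, ← neg_smul, act_add, act_add, act_smul, act_smul, act_add, act_smul, neg_smul, ← sub_eq_add_neg]

theorem EU_smul {e w : V} {z : F} (r : F) (he : hh e e = 0) (hw : hh w e = 0) (hz : z + σ z + hh w w = 0) :
    (EU (r • e) w z : SUn) = EU e (σ r • w) (r * σ r * z) := by
  refine ext_su fun x => ?_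
  have h1 : hh (r • e) (r • e) = 0 := by rw [hc.form.smul_left, herm_smul_right hc.form, he]; ring
  have h2 : hh w (r • e) = 0 := by rw [herm_smul_right hc.form, hw, mul_zero]
  have h3 : hh (σ r • w) e = 0 := by rw [hc.form.smul_left, hw, mul_zero]
  have h4 : r * σ r * z + σ (r * σ r * z) + hh (σ r • w) (σ r • w) = 0 := by
    rw [hc.form.smul_left, herm_smul_right hc.form, map_mul, map_mul, hc.form.involutive]
    linear_combination (r * σ r) * hz
  rw [EU_act hc h1 h2 hz, EU_act hc he h3 h4, herm_smul_right hc.form, herm_smul_right hc.form, hc.form.involutive]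
  module

theorem conj_diag {e f w : V} {z lam : F} {t : SUn} (he : hh e e = 0) (hte : act t e = lam • e)
    (hw : hh w e = 0) (_hwf : hh w f = 0) (hz : z + σ z + hh w w = 0) :
    t * EU e w z * t⁻¹ = (EU e (σ lam • act t w) (lam * σ lam * z) : SUn) := by
  rw [conj_EU hc t he hw hz, hte]
  by_cases hl : lam = 0
  · subst hl
    rw [zero_smul] at hte
    rw [(by_contra fun h0 => act_ne_zero t h0 hte : e = 0)]
    refine ext_su fun x => ?_
    rw [EU_act hc (by simp [herm_zero_left hc.form]) (by simp [herm_zero_right hc.form]) (by rw [iso, hz]),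
      EU_act hc (by simp [herm_zero_left hc.form]) (by simp [herm_zero_right hc.form])
        (by simp [herm_zero_left hc.form])]
    simp [herm_zero_right hc.form]
  · refine EU_smul hc lam he ?_ (by rw [iso, hz])
    have h1 := iso t w e
    rw [hte, herm_smul_right hc.form, hw] at h1
    exact (mul_eq_zero.1 h1).resolve_left ((map_ne_zero σ).2 hl)

theorem perp_image {e f : V} {lam : F} {t : SUn} (hl : lam ≠ 0) (hte : act t e = lam • e)
    (htf : act t f = (σ lam)⁻¹ • f) {w : V} (hwe : hh w e = 0) (hwf : hh w f = 0) :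
    hh (σ lam • act t w) e = 0 ∧ hh (σ lam • act t w) f = 0 := by
  have h1 := iso t w e
  have h2 := iso t w f
  rw [hte, herm_smul_right hc.form, hwe] at h1
  rw [htf, herm_smul_right hc.form, hwf] at h2
  rw [hc.form.smul_left, hc.form.smul_left, (mul_eq_zero.1 h1).resolve_left ((map_ne_zero σ).2 hl),
    (mul_eq_zero.1 h2).resolve_left ((map_ne_zero σ).2 (inv_ne_zero ((map_ne_zero σ).2 hl)))]
  simp

theorem diag_perp {e f : V} {d : Fin m → V} (hb : Frame q e f d) {t : SUn} {α : Fin m → F}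
    (htd : ∀ i, act t (d i) = α i • d i) {w : V} (hwe : hh w e = 0) (hwf : hh w f = 0) :
    act t w = ∑ i, (α i * hh w (d i)) • d i := by
  conv_lhs => rw [hb.expand w, hwe, hwf]
  show sMat t *ᵥ _ = _
  simp only [zero_smul, zero_add, mulVec_sum, mulVec_smul]
  refine Finset.sum_congr rfl fun i _ => ?_
  rw [show sMat t *ᵥ d i = α i • d i from htd i, smul_smul, mul_comm]

/-- An additive map of the middle space commuting with the Levi action is a scalar. -/
theorem scalar_of_comm [Finite F] (hq3 : n = 3 → q ≠ 2) {e f : V} {d : Fin m → V} (hb : Frame q e f d) (T : V → V)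
    (hadd : ∀ x y, hh x e = 0 → hh x f = 0 → hh y e = 0 → hh y f = 0 → T (x + y) = T x + T y)
    (hperp : ∀ x, hh x e = 0 → hh x f = 0 → hh (T x) e = 0 ∧ hh (T x) f = 0)
    (hT : ∀ (t : SUn) (lam : F), lam ≠ 0 → act t e = lam • e → act t f = (σ lam)⁻¹ • f →
      ∀ w, hh w e = 0 → hh w f = 0 → T (σ lam • act t w) = σ lam • act t (T w)) :
    ∃ c : F, ∀ w, hh w e = 0 → hh w f = 0 → T w = c • w := by
  obtain ⟨g, ζ, hg0, hg, hζ, hζ2, hζ1, hζ3⟩ := exists_zeta hc
  have hσg : σ g ≠ 0 := (map_ne_zero σ).2 hg0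
  have hζ0 : ζ ≠ 0 := fun h0 => by simp [h0] at hζ
  have hP : ∀ (x : F) (i : Fin m), hh (x • d i) e = 0 ∧ hh (x • d i) f = 0 := fun x i =>
    ⟨by rw [hc.form.smul_left, hb.hde, mul_zero], by rw [hc.form.smul_left, hb.hdf, mul_zero]⟩
  have hsm : ∀ (c : F) (w : V), hh w e = 0 → hh w f = 0 → hh (c • w) e = 0 ∧ hh (c • w) f = 0 := fun c w h1 h2 =>
    ⟨by rw [hc.form.smul_left, h1, mul_zero], by rw [hc.form.smul_left, h2, mul_zero]⟩
  have hT0 : T 0 = 0 := by
    have := hadd 0 0 (herm_zero_left hc.form _) (herm_zero_left hc.form _) (herm_zero_left hc.form _)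
      (herm_zero_left hc.form _)
    rw [add_zero] at this
    simpa using this
  have hfix : ∀ c : F, σ c = c → ∀ w, hh w e = 0 → hh w f = 0 → T (c • w) = c • T w := by
    intro c hcf w h1 h2
    by_cases hc0 : c = 0
    · rw [hc0, zero_smul, zero_smul, hT0]
    obtain ⟨t, hte, htf, htd⟩ := exists_diag hc hb hc0 (α := fun _ => 1) (fun _ => by simp)
      (by rw [hcf, mul_inv_cancel₀ hc0]; simp)
    have h := hT t c hc0 hte htf w h1 h2
    have hid : ∀ x, hh x e = 0 → hh x f = 0 → act t x = x := fun x hx1 hx2 => by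
      rw [diag_perp hc hb htd hx1 hx2]
      conv_rhs => rw [hb.expand x, hx1, hx2]
      simp
    rw [hid w h1 h2, hid _ (hperp w h1 h2).1 (hperp w h1 h2).2, hcf] at h
    exact h
  have hA : ∀ i : Fin m, ∃ t : SUn, act t e = g • e ∧ act t f = (σ g)⁻¹ • f ∧
      ∀ j, act t (d j) = (if j = i then ζ else 1) • d j := by
    intro i
    refine exists_diag hc hb hg0 (fun j => ?_) ?_
    · by_cases hj : j = i <;> simp [hj, hζ]
    · rw [Finset.prod_ite_eq' Finset.univ i fun _ => ζ, if_pos (Finset.mem_univ _), hg]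
      field_simp
  have hAw : ∀ (i : Fin m) (t : SUn), (∀ j, act t (d j) = (if j = i then ζ else 1) • d j) → ∀ w,
      hh w e = 0 → hh w f = 0 → act t w = w + ((ζ - 1) * hh w (d i)) • d i := by
    intro i t htd w h1 h2
    rw [diag_perp hc hb htd h1 h2]
    conv_rhs => arg 1; rw [hb.expand w, h1, h2, zero_smul, zero_smul, zero_add, zero_add]
    rw [← sub_eq_iff_eq_add', ← Finset.sum_sub_distrib, Finset.sum_eq_single i (fun j _ hj => by simp [hj])
      (by simp), if_pos rfl, ← sub_smul]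
    congr 1
    ring
  have hline : ∀ (i : Fin m) (x : F), T (x • d i) = hh (T (x • d i)) (d i) • d i := by
    intro i x
    obtain ⟨t, hte, htf, htd⟩ := hA i
    let A : V → V := fun w => σ g • act t w
    have hAP : ∀ w, hh w e = 0 → hh w f = 0 → hh (A w) e = 0 ∧ hh (A w) f = 0 := fun w h1 h2 =>
      perp_image hc hg0 hte htf h1 h2
    have hAe : ∀ w, hh w e = 0 → hh w f = 0 → A w = σ g • w + (σ g * (ζ - 1) * hh w (d i)) • d i := fun w h1 h2 => by
      simp only [A, hAw i t htd w h1 h2]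
      module
    have hK : (σ g * (ζ - 1)) * (σ g * ζ - g) ≠ 0 := by
      refine mul_ne_zero (mul_ne_zero hσg (sub_ne_zero.2 hζ1)) fun h0 => hζ2 ?_
      rw [hg] at h0
      exact mul_right_cancel₀ hg0 (by linear_combination h0)
    have hpoly : ∀ w, hh w e = 0 → hh w f = 0 →
        A (A w) + (-(σ g + g)) • A w + (σ g * g) • w = ((σ g * (ζ - 1)) * (σ g * ζ - g) * hh w (d i)) • d i := by
      intro w h1 h2
      have hA1 : hh (A w) (d i) = σ g * ζ * hh w (d i) := by
        rw [hAe w h1 h2, hc.form.add_left, hc.form.smul_left, hc.form.smul_left, hb.hdd, if_pos rfl]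
        ring
      rw [hAe _ (hAP w h1 h2).1 (hAP w h1 h2).2, hA1, hAe w h1 h2]
      module
    have hcomm : ∀ w, hh w e = 0 → hh w f = 0 →
        T (A (A w) + (-(σ g + g)) • A w + (σ g * g) • w) = A (A (T w)) + (-(σ g + g)) • A (T w) + (σ g * g) • T w := by
      intro w h1 h2
      obtain ⟨a1, a2⟩ := hAP w h1 h2
      obtain ⟨b1, b2⟩ := hAP _ a1 a2
      obtain ⟨c1, c2⟩ := hsm (-(σ g + g)) _ a1 a2
      obtain ⟨d1, d2⟩ := hsm (σ g * g) _ h1 h2
      rw [hadd _ _ (by rw [hc.form.add_left, b1, c1, add_zero]) (by rw [hc.form.add_left, b2, c2, add_zero]) d1 d2,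
        hadd _ _ b1 b2 c1 c2, hT t g hg0 hte htf _ a1 a2, hT t g hg0 hte htf _ h1 h2,
        hfix _ (by rw [map_neg, map_add, hc.form.involutive]; ring) _ a1 a2,
        hfix _ (by rw [map_mul, hc.form.involutive]; ring) _ h1 h2, hT t g hg0 hte htf _ h1 h2]
    obtain ⟨K, hKdef⟩ : ∃ K, K = (σ g * (ζ - 1)) * (σ g * ζ - g) := ⟨_, rfl⟩
    have h := hcomm ((x / K) • d i) (hP _ i).1 (hP _ i).2
    rw [hpoly _ (hP _ i).1 (hP _ i).2, hpoly _ (hperp _ (hP _ i).1 (hP _ i).2).1 (hperp _ (hP _ i).1 (hP _ i).2).2,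
      ← hKdef, hc.form.smul_left, hb.hdd, if_pos rfl, mul_one, mul_div_cancel₀ _ (hKdef ▸ hK)] at h
    conv_lhs => rw [h]
    rw [h, hc.form.smul_left, hb.hdd, if_pos rfl, mul_one]
  have hlin : ∀ (i : Fin m) (y : F), T (y • d i) = y • T (d i) := by
    intro i y
    obtain ⟨a, ha, haT⟩ : ∃ a : F, σ a ≠ a ∧ ∀ x : F, T ((a * x) • d i) = a • T (x • d i) := by
      by_cases hm : ∀ j, j = i
      · have hn3 : n = 3 := by
          have h1 := frame_card hc hb
          have h2 : Fintype.card (Fin m) = 1 := Fintype.card_eq_one_iff.2 ⟨i, hm⟩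
          rw [Fintype.card_fin] at h2
          omega
        obtain ⟨t, hte, htf, htd⟩ := hA i
        refine ⟨σ g * ζ, fun h0 => hζ3 (hq3 hn3) ?_, fun x => ?_⟩
        · rw [map_mul, hc.form.involutive, hg] at h0
          refine mul_right_cancel₀ hg0 ?_
          linear_combination g * hζ - ζ * h0
        have h := hT t g hg0 hte htf _ (hP x i).1 (hP x i).2
        obtain ⟨k, hk⟩ : ∃ k, k = hh (T (x • d i)) (d i) := ⟨_, rfl⟩
        have hk' : T (x • d i) = k • d i := hk ▸ hline i x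
        rw [act_smul, htd, if_pos rfl, hk', act_smul, htd, if_pos rfl] at h
        simp only [smul_smul] at h
        rw [show σ g * ζ * x = σ g * (x * ζ) by ring, h, hk', smul_smul]
        congr 1
        ring
      · push Not at hm
        obtain ⟨j, hj⟩ := hm
        obtain ⟨t, hte, htf, htd⟩ := hA j
        refine ⟨σ g, fun h0 => hζ1 ?_, fun x => ?_⟩
        · rw [hc.form.involutive, hg] at h0
          exact mul_right_cancel₀ hg0 (by linear_combination -h0)
        have h := hT t g hg0 hte htf _ (hP x i).1 (hP x i).2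
        rw [act_smul, htd, if_neg (Ne.symm hj), one_smul, hline i x, act_smul, htd, if_neg (Ne.symm hj), one_smul,
          ← hline i x, smul_smul] at h
        exact h
    obtain ⟨v, hv⟩ : ∃ v, v = (y - σ y) / (a - σ a) := ⟨_, rfl⟩
    have hne : a - σ a ≠ 0 := sub_ne_zero.2 (Ne.symm ha)
    have hvf : σ v = v := by
      rw [hv, map_div₀, map_sub, map_sub, hc.form.involutive, hc.form.involutive, ← neg_sub y, ← neg_sub a,
        neg_div_neg_eq]
    have huf : σ (y - v * a) = y - v * a := by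
      have h1 : v * (a - σ a) = y - σ y := by rw [hv, div_mul_cancel₀ _ hne]
      rw [map_sub, map_mul, hvf]
      linear_combination h1
    have hsplit : y • d i = (y - v * a) • d i + v • ((a * 1) • d i) := by module
    conv_lhs => rw [hsplit]
    rw [hadd _ _ (hP _ i).1 (hP _ i).2 (by rw [smul_smul]; exact (hP _ i).1) (by rw [smul_smul]; exact (hP _ i).2),
      hfix _ huf _ (hb.hde i) (hb.hdf i), hfix _ hvf _ (hP _ i).1 (hP _ i).2, haT, one_smul]
    module
  have heq : ∀ i j, hh (T (d i)) (d i) = hh (T (d j)) (d j) := by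
    intro i j
    by_cases hij : i = j
    · rw [hij]
    obtain ⟨c, hcn⟩ := exists_norm_eq hc.form.ne_refl hc.form.involutive (a := (-1 : F)) (by simp)
    obtain ⟨δ, hδ0, hδ⟩ := exists_skew hc.form.ne_refl hc.form.involutive
    have hδs : δ + σ δ = 0 := by rw [hδ, add_neg_cancel]
    obtain ⟨v, hv⟩ : ∃ v, v = d i + c • d j := ⟨_, rfl⟩
    have hvv : hh v v = 0 := by
      simp [hv, hc.form.add_left, hc.form.smul_left, herm_add_right hc.form, herm_smul_right hc.form, hb.hdd, hij,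
        Ne.symm hij]
      linear_combination hcn
    have hve : hh v e = 0 := by simp [hv, hc.form.add_left, hc.form.smul_left, hb.hde]
    have hvf : hh v f = 0 := by simp [hv, hc.form.add_left, hc.form.smul_left, hb.hdf]
    have hdv : hh (d i) v = 1 := by
      simp [hv, herm_add_right hc.form, herm_smul_right hc.form, hb.hdd, hij]
    have hte : act (TU v δ : SUn) e = (1 : F) • e := by
      rw [TU_act hc hvv hδs, herm_eq_zero_symm hc.form hve]; simp
    have htf : act (TU v δ : SUn) f = (σ (1 : F))⁻¹ • f := by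
      rw [TU_act hc hvv hδs, herm_eq_zero_symm hc.form hvf]; simp
    have h := hT _ 1 one_ne_zero hte htf (d i) (hb.hde i) (hb.hdf i)
    obtain ⟨ci, hci⟩ : ∃ ci, ci = hh (T (d i)) (d i) := ⟨_, rfl⟩
    obtain ⟨cj, hcj⟩ : ∃ cj, cj = hh (T (d j)) (d j) := ⟨_, rfl⟩
    have e1 : T (d i) = ci • d i := by
      have := hline i 1; rw [one_smul] at this; rw [hci]; exact this
    have e2 : T (d j) = cj • d j := by
      have := hline j 1; rw [one_smul] at this; rw [hcj]; exact this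
    rw [map_one, one_smul, one_smul, TU_act hc hvv hδs, hdv, mul_one, e1, act_smul, TU_act hc hvv hδs, hdv, mul_one,
      hv, show d i + δ • (d i + c • d j) = (1 + δ) • d i + (δ * c) • d j by module,
      hadd _ _ (hP _ i).1 (hP _ i).2 (hP _ j).1 (hP _ j).2, hlin, hlin, e1, e2] at h
    have h2 := congrArg (fun u => hh u (d j)) h
    simp [hc.form.add_left, hc.form.smul_left, hb.hdd, hij] at h2
    rw [← hci, ← hcj]
    refine mul_left_cancel₀ (mul_ne_zero hδ0 (show c ≠ 0 from fun h0 => by simp [h0] at hcn)) ?_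
    linear_combination -h2
  by_cases hm : m = 0
  · subst hm
    refine ⟨1, fun w h1 h2 => ?_⟩
    have : w = 0 := by rw [hb.expand w, h1, h2]; simp
    rw [this, hT0, smul_zero]
  refine ⟨hh (T (d ⟨0, by omega⟩)) (d ⟨0, by omega⟩), fun w h1 h2 => ?_⟩
  have hsum : ∀ (s : Finset (Fin m)) (x : Fin m → F),
      T (∑ i ∈ s, x i • d i) = hh (T (d ⟨0, by omega⟩)) (d ⟨0, by omega⟩) • ∑ i ∈ s, x i • d i := by
    intro s x
    induction s using Finset.induction with
    | empty => simp [hT0]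
    | insert i s hi ih =>
      have hPs : hh (∑ i ∈ s, x i • d i) e = 0 ∧ hh (∑ i ∈ s, x i • d i) f = 0 := by
        constructor <;> simp [Cfsg.Lib.Classical.herm_sum_left hc.form, hc.form.smul_left, hb.hde, hb.hdf]
      rw [Finset.sum_insert hi, hadd _ _ (hP _ i).1 (hP _ i).2 hPs.1 hPs.2, ih, hlin, smul_add]
      have := hline i 1
      rw [one_smul] at this
      rw [this, heq i ⟨0, by omega⟩, smul_comm]
  have hw : w = ∑ i, hh w (d i) • d i := by conv_lhs => rw [hb.expand w, h1, h2]; simp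
  conv_lhs => rw [hw]
  rw [hsum, ← hw]

theorem commute_PT_orth [Finite F] (hn : 3 ≤ n) {u v : V} (hu : hh u u = 0) (hv : hh v v = 0) (hv0 : v ≠ 0) {a b : F}
    (ha : a + σ a = 0) (ha0 : a ≠ 0) (hb : b + σ b = 0) (hb0 : b ≠ 0) (h : Commute (PT u a : PU) (PT v b)) :
    hh u v = 0 := by
  obtain ⟨r, -, hr⟩ := (comm_PT_iff hc hn hv0 hv hb hb0 _).1 h
  rw [TU_act hc hu ha] at hr
  by_contra hne
  have hvu : a * hh v u ≠ 0 := mul_ne_zero ha0 fun h0 => hne (herm_eq_zero_symm hc.form h0)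
  have hu' : u = ((a * hh v u)⁻¹ * (r - 1)) • v := by
    rw [mul_smul, sub_smul, one_smul, ← hr, add_sub_cancel_left, smul_smul, inv_mul_cancel₀ hvu, one_smul]
  exact hne (by rw [hu', hc.form.smul_left, hv, mul_zero])

theorem commute_PT [Finite F] (hn : 3 ≤ n) {u v : V} (hu : hh u u = 0) (hv : hh v v = 0) (hv0 : v ≠ 0) {a b : F}
    (ha : a + σ a = 0) (hb : b + σ b = 0) (hb0 : b ≠ 0) (h : hh u v = 0) : Commute (PT u a : PU) (PT v b) :=
  (comm_PT_iff hc hn hv0 hv hb hb0 _).2 ⟨1, by simp, by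
    rw [TU_act hc hu ha, herm_eq_zero_symm hc.form h]; simp⟩

theorem mem_Pb_iff_conj [Finite F] (hn : 3 ≤ n) {e : V} (he0 : e ≠ 0) (he : hh e e = 0) {c : F} (hcs : c + σ c = 0)
    (hc0 : c ≠ 0) (y : PU) : y ∈ Pb q e ↔ ∃ d, d + σ d = 0 ∧ y * PT e c * y⁻¹ = PT e d := by
  have : Fintype F := Fintype.ofFinite F
  obtain ⟨z, rfl⟩ := QuotientGroup.mk_surjective y
  have hz : (QuotientGroup.mk z : PU) * PT e c * (QuotientGroup.mk z : PU)⁻¹ = PT (act z e) c := by
    rw [PT, PT, ← QuotientGroup.mk_mul, ← QuotientGroup.mk_inv, ← QuotientGroup.mk_mul, conj_TU hc z he hcs]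
  rw [mk_mem_Pb_iff hc hn, hz]
  constructor
  · rintro ⟨r, -, hr⟩
    refine ⟨r * σ r * c, ?_, by rw [hr, PT, PT, TU_smul hc he r hcs]⟩
    rw [map_mul, map_mul, hc.form.involutive]
    linear_combination (r * σ r) * hcs
  · rintro ⟨d, hd, h⟩
    obtain ⟨r, hr, -⟩ := PT_eq_param hc hn (iso_self hc z he) he hcs hd hc0 (act_ne_zero z he0) h
    exact ⟨r, fun h0 => act_ne_zero z he0 (by rw [hr, h0, zero_smul]), hr⟩

theorem Pb_image [Finite F] (hn : 3 ≤ n) (β : MulAut PU) {e e' : V} (he0 : e ≠ 0) (he : hh e e = 0)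
    (he0' : e' ≠ 0) (he' : hh e' e' = 0) {ψ : F → F}
    (hψ : ∀ d, d + σ d = 0 → ψ d + σ (ψ d) = 0 ∧ β (PT e d) = PT e' (ψ d))
    (hsurj : ∀ d', d' + σ d' = 0 → ∃ d, d + σ d = 0 ∧ β (PT e d) = PT e' d') (y : PU) :
    y ∈ Pb q e ↔ β y ∈ Pb q e' := by
  have : Fintype F := Fintype.ofFinite F
  obtain ⟨δ, hδ0, hδ⟩ := exists_skew hc.form.ne_refl hc.form.involutive
  have hδs : δ + σ δ = 0 := by rw [hδ, add_neg_cancel]
  have h0 : ψ δ ≠ 0 := fun h => PT_ne_one hc hn he0 he hδs hδ0 (β.injective (by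
    rw [(hψ δ hδs).2, h, PT_zero hc he', map_one]))
  rw [mem_Pb_iff_conj hc hn he0 he hδs hδ0, mem_Pb_iff_conj hc hn he0' he' (hψ δ hδs).1 h0, ← (hψ δ hδs).2,
    ← map_inv, ← map_mul, ← map_mul]
  constructor
  · rintro ⟨d, hd, h⟩
    exact ⟨ψ d, (hψ d hd).1, by rw [h, (hψ d hd).2]⟩
  · rintro ⟨d', hd', h⟩
    obtain ⟨d, hd, hd2⟩ := hsurj d' hd'
    exact ⟨d, hd, β.injective (h.trans hd2.symm)⟩

theorem Qb_image_le [Finite F] {p : ℕ} [Fact p.Prime] [CharP F p] (hn : 3 ≤ n) (β : MulAut PU) {e e' : V}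
    (he0 : e ≠ 0) (he : hh e e = 0) (he0' : e' ≠ 0) (he' : hh e' e' = 0)
    (hP : ∀ y, y ∈ Pb q e ↔ β y ∈ Pb q e') {y : PU} (hy : y ∈ Qb q e) : β y ∈ Qb q e' := by
  refine le_Qb (p := p) hc hn he0' he' (R := (Qb q e).map β.toMonoidHom) ((Qb_isPGroup hc p he0 he).map _) ?_ ?_
    ⟨y, hy, rfl⟩
  · rintro _ ⟨x, hx, rfl⟩
    exact (hP x).1 (Qb_le e hx)
  · rintro z hz _ ⟨x, hx, rfl⟩
    have h1 : β.symm (QuotientGroup.mk z : PU) ∈ Pb q e := (hP _).2 (by
      rw [MulEquiv.apply_symm_apply]; exact mk_mem_Pb hz)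
    obtain ⟨z', hz', hz''⟩ := h1
    refine ⟨_, Qb_normal hc hz' hx, ?_⟩
    show β ((QuotientGroup.mk' _ z') * x * (QuotientGroup.mk' _ z')⁻¹) = _
    rw [hz'', map_mul, map_mul, map_inv, MulEquiv.apply_symm_apply]
    rfl

theorem fix_pair [Finite F] (hn : 3 ≤ n) {e f : V} (he0 : e ≠ 0) (hf0 : f ≠ 0) (hfe : hh f e = 1) {y : PU}
    (h1 : y ∈ Pb q e) (h2 : y ∈ Pb q f) :
    ∃ (t : SUn) (lam : F), lam ≠ 0 ∧ y = QuotientGroup.mk t ∧ act t e = lam • e ∧ act t f = (σ lam)⁻¹ • f := by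
  obtain ⟨t, rfl⟩ := QuotientGroup.mk_surjective y
  obtain ⟨lam, hl, hte⟩ := (mk_mem_Pb_iff hc hn).1 h1
  obtain ⟨k, hk, htf⟩ := (mk_mem_Pb_iff hc hn).1 h2
  refine ⟨t, lam, hl, rfl, hte, ?_⟩
  have h3 := iso t f e
  rw [hte, htf, hc.form.smul_left, herm_smul_right hc.form, hfe, mul_one] at h3
  rw [htf, eq_inv_of_mul_eq_one_left h3]

theorem mkEU_inj [Finite F] (hn : 3 ≤ n) {e f w w' : V} {z z' : F} (he : hh e e = 0) (hfe : hh f e = 1) (he0 : e ≠ 0)
    (hw : hh w e = 0) (hwf : hh w f = 0) (hz : z + σ z + hh w w = 0)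
    (hw' : hh w' e = 0) (hwf' : hh w' f = 0) (hz' : z' + σ z' + hh w' w' = 0)
    (h : (QuotientGroup.mk (EU e w z : SUn) : PU) = QuotientGroup.mk (EU e w' z' : SUn)) : w = w' ∧ z = z' := by
  have : Fintype F := Fintype.ofFinite F
  exact EU_inj hc he hfe he0 hw hwf hz hw' hwf' hz'
    (eq_of_mk_eq hc hn he0 (EU_mem hc he hw hz).1 (EU_mem hc he hw' hz').1 h)

theorem mkEU_mul {e w w' : V} {z z' : F} (he : hh e e = 0) (hw : hh w e = 0) (hz : z + σ z + hh w w = 0)
    (hw' : hh w' e = 0) (hz' : z' + σ z' + hh w' w' = 0) :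
    (QuotientGroup.mk (EU e w z : SUn) : PU) * QuotientGroup.mk (EU e w' z' : SUn) =
      QuotientGroup.mk (EU e (w + w') (z + z' - hh w' w) : SUn) := by
  rw [← QuotientGroup.mk_mul, EU_mul hc he hw hz hw' hz']

theorem EU_shift {e w : V} {z z' : F} (he : hh e e = 0) (hw : hh w e = 0) (hz : z + σ z + hh w w = 0)
    (hz' : z' + σ z' + hh w w = 0) :
    (QuotientGroup.mk (EU e w z' : SUn) : PU) = QuotientGroup.mk (EU e w z : SUn) * PT e (z' - z) ∧
      (z' - z) + σ (z' - z) = 0 := by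
  have hs : (z' - z) + σ (z' - z) = 0 := by rw [map_sub]; linear_combination hz' - hz
  refine ⟨?_, hs⟩
  rw [PT, ← EU_zero hc he hs, mkEU_mul hc he hw hz (herm_zero_left hc.form _)
    (by rw [herm_zero_left hc.form, add_zero, hs]), herm_zero_left hc.form, add_zero, sub_zero, add_sub_cancel]

/-- After an inner-diagonal and a field automorphism, an automorphism fixes the root structure at a pair. -/
theorem exists_normal [Finite F] {p : ℕ} [Fact p.Prime] [CharP F p] (hn : 3 ≤ n) (hq3 : n = 3 → q ≠ 2) (β : MulAut PU)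
    {e f : V} {d : Fin m → V} (hb : Frame q e f d) :
    ∃ (g : GUn) (θ : F ≃+* F) (γ : MulAut PU), β = conjP g * frobP θ * γ ∧
      (∀ c, c + σ c = 0 → γ (PT e c) = PT e c) ∧
      (∀ c, c + σ c = 0 → ∃ c', c' + σ c' = 0 ∧ γ (PT f c) = PT f c') ∧
      (∀ w z, hh w e = 0 → hh w f = 0 → z + σ z + hh w w = 0 → ∃ z', z' + σ z' + hh w w = 0 ∧
        γ (QuotientGroup.mk (EU e w z : SUn)) = QuotientGroup.mk (EU e w z' : SUn)) := by
  have : Fintype F := Fintype.ofFinite F
  have he0 : e ≠ 0 := fun h0 => by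
    have := hb.hfe; rw [h0, herm_zero_right hc.form] at this; exact zero_ne_one this
  have hf0 : f ≠ 0 := fun h0 => by
    have := hb.hfe; rw [h0, herm_zero_left hc.form] at this; exact zero_ne_one this
  have hef := herm_eq_one_symm hc.form hb.hfe
  obtain ⟨δ, hδ0, hδ⟩ := exists_skew hc.form.ne_refl hc.form.involutive
  have hδs : δ + σ δ = 0 := by rw [hδ, add_neg_cancel]
  obtain ⟨e', ψ, he0', he', hψ, hψs⟩ := exists_image (p := p) hc hn β he0 hb.hee
  obtain ⟨f₁, φ, hf01, hf1, hφ, hφs⟩ := exists_image (p := p) hc hn β hf0 hb.hff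
  have hk : hh f₁ e' ≠ 0 := by
    intro h0
    have n1 : ψ δ ≠ 0 := fun h => PT_ne_one hc hn he0 hb.hee hδs hδ0 (β.injective (by
      rw [(hψ δ hδs).2, h, PT_zero hc he', map_one]))
    have h1 := commute_PT hc hn hf1 he' he0' (hφ δ hδs).1 (hψ δ hδs).1 n1 h0
    rw [← (hφ δ hδs).2, ← (hψ δ hδs).2] at h1
    have h2 := commute_PT_orth hc hn hb.hff hb.hee he0 hδs hδ0 hδs hδ0 (by
      simpa using h1.map β.symm.toMonoidHom)
    rw [hb.hfe] at h2
    exact one_ne_zero h2
  obtain ⟨k, hkdef⟩ : ∃ k, k = hh f₁ e' := ⟨_, rfl⟩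
  rw [← hkdef] at hk
  obtain ⟨f', hf'def⟩ : ∃ f', f' = k⁻¹ • f₁ := ⟨_, rfl⟩
  have hf' : hh f' f' = 0 := by rw [hf'def, hc.form.smul_left, herm_smul_right hc.form, hf1]; ring
  have hfe' : hh f' e' = 1 := by rw [hf'def, hc.form.smul_left, ← hkdef, inv_mul_cancel₀ hk]
  have hef' := herm_eq_one_symm hc.form hfe'
  have hf0' : f' ≠ 0 := fun h0 => by rw [h0, herm_zero_left hc.form] at hfe'; exact zero_ne_one hfe'
  have hf1' : f₁ = k • f' := by rw [hf'def, smul_smul, mul_inv_cancel₀ hk, one_smul]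
  have hNs : ∀ (r c : F), c + σ c = 0 → r * σ r * c + σ (r * σ r * c) = 0 := fun r c hcs => by
    rw [map_mul, map_mul, hc.form.involutive]; linear_combination (r * σ r) * hcs
  have hφ' : ∀ c, c + σ c = 0 → k * σ k * φ c + σ (k * σ k * φ c) = 0 ∧
      β (PT f c) = PT f' (k * σ k * φ c) := fun c hcs =>
    ⟨hNs _ _ (hφ c hcs).1, by rw [(hφ c hcs).2, hf1', PT, PT, TU_smul hc hf' k (hφ c hcs).1]⟩
  have hφs' : ∀ c', c' + σ c' = 0 → ∃ c, c + σ c = 0 ∧ β (PT f c) = PT f' c' := by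
    intro c' hc'
    obtain ⟨c, hcs, h⟩ := hφs (k⁻¹ * σ k⁻¹ * c') (hNs _ _ hc')
    refine ⟨c, hcs, ?_⟩
    rw [h, hf1', PT, PT, TU_smul hc hf' k (hNs _ _ hc')]
    congr 2
    rw [map_inv₀]
    field_simp [(map_ne_zero σ).2 hk]
  have hPe := Pb_image hc hn β he0 hb.hee he0' he' hψ hψs
  have hPf := Pb_image hc hn β hf0 hb.hff hf0' hf' hφ' hφs'
  have hQ : ∀ y ∈ Qb q e, β y ∈ Qb q e' := fun y hy => Qb_image_le (p := p) hc hn β he0 hb.hee he0' he' hPe hy
  have hQ' : ∀ y ∈ Qb q e', β.symm y ∈ Qb q e := fun y hy =>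
    Qb_image_le (p := p) hc hn β.symm he0' he' he0 hb.hee (fun y => by rw [hPe (β.symm y), MulEquiv.apply_symm_apply])
      hy
  -- the map on the middle space
  have hLex : ∀ w : V, ∃ w' : V, hh w e = 0 → hh w f = 0 → hh w' e' = 0 ∧ hh w' f' = 0 ∧ ∀ z,
      z + σ z + hh w w = 0 → ∃ z', z' + σ z' + hh w' w' = 0 ∧
        β (QuotientGroup.mk (EU e w z : SUn)) = QuotientGroup.mk (EU e' w' z' : SUn) := by
    intro w
    by_cases hwe : hh w e = 0
    swap
    · exact ⟨0, fun h => absurd h hwe⟩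
    obtain ⟨z₀, hz₀⟩ := exists_z hc w
    obtain ⟨A, hA, hA'⟩ := hQ _ (mk_mem_Qb (EU_mem hc hb.hee hwe hz₀))
    obtain ⟨w', z₀', h1, h2, hz₀', rfl⟩ := EU_param hc he' hf' hfe' hA
    refine ⟨w', fun _ _ => ⟨h1, h2, fun z hz => ?_⟩⟩
    obtain ⟨h3, h4⟩ := EU_shift hc hb.hee hwe hz₀ hz
    refine ⟨z₀' + ψ (z - z₀), by rw [map_add]; linear_combination hz₀' + (hψ _ h4).1, ?_⟩
    rw [h3, map_mul, ← hA', (hψ _ h4).2, PT, ← EU_zero hc he' (hψ _ h4).1]
    refine (mkEU_mul hc he' h1 hz₀' (herm_zero_left hc.form _)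
      (by rw [herm_zero_left hc.form, add_zero, (hψ _ h4).1])).trans ?_
    rw [herm_zero_left hc.form, add_zero, sub_zero]
  choose L hL using hLex
  have hLP : ∀ w, hh w e = 0 → hh w f = 0 → hh (L w) e' = 0 ∧ hh (L w) f' = 0 := fun w h1 h2 =>
    ⟨(hL w h1 h2).1, (hL w h1 h2).2.1⟩
  have hLadd : ∀ x y, hh x e = 0 → hh x f = 0 → hh y e = 0 → hh y f = 0 → L (x + y) = L x + L y := by
    intro x y hx hxf hy hyf
    have hxy : hh (x + y) e = 0 := by rw [hc.form.add_left, hx, hy, add_zero]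
    have hxyf : hh (x + y) f = 0 := by rw [hc.form.add_left, hxf, hyf, add_zero]
    obtain ⟨a, ha⟩ := exists_z hc x
    obtain ⟨b, hb'⟩ := exists_z hc y
    obtain ⟨a', ha', hA⟩ := (hL x hx hxf).2.2 a ha
    obtain ⟨b', hb'', hB⟩ := (hL y hy hyf).2.2 b hb'
    have hc1 : (a + b - hh y x) + σ (a + b - hh y x) + hh (x + y) (x + y) = 0 := by
      simp only [map_sub, map_add, hc.form.add_left, herm_add_right hc.form]
      rw [← hc.form.herm x y]
      linear_combination ha + hb'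
    obtain ⟨c', hc', hC⟩ := (hL _ hxy hxyf).2.2 _ hc1
    have hc2 : (a' + b' - hh (L y) (L x)) + σ (a' + b' - hh (L y) (L x)) + hh (L x + L y) (L x + L y) = 0 := by
      simp only [map_sub, map_add, hc.form.add_left, herm_add_right hc.form]
      rw [← hc.form.herm (L x) (L y)]
      linear_combination ha' + hb''
    rw [← mkEU_mul hc hb.hee hx ha hy hb', map_mul, hA, hB,
      mkEU_mul hc he' (hLP x hx hxf).1 ha' (hLP y hy hyf).1 hb''] at hC
    exact (mkEU_inj hc hn he' hfe' he0' (hLP _ hxy hxyf).1 (hLP _ hxy hxyf).2 hc'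
      (by rw [hc.form.add_left, (hLP x hx hxf).1, (hLP y hy hyf).1, add_zero])
      (by rw [hc.form.add_left, (hLP x hx hxf).2, (hLP y hy hyf).2, add_zero]) hc2 hC.symm).1
  have hL0 : ∀ w, hh w e = 0 → hh w f = 0 → L w = 0 → w = 0 := by
    intro w hwe hwf h0
    obtain ⟨z, hz⟩ := exists_z hc w
    obtain ⟨z', hz', h⟩ := (hL w hwe hwf).2.2 z hz
    rw [h0, herm_zero_left hc.form, add_zero] at hz'
    rw [h0, EU_zero hc he' hz'] at h
    obtain ⟨c, hcs, hc'⟩ := hψs z' hz'
    have h2 := β.injective (h.trans hc'.symm)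
    rw [PT, ← EU_zero hc hb.hee hcs] at h2
    exact (mkEU_inj hc hn hb.hee hb.hfe he0 hwe hwf hz (herm_zero_left hc.form _) (herm_zero_left hc.form _)
      (by rw [herm_zero_left hc.form, add_zero, hcs]) h2).1
  have hLsub : ∀ x y, hh x e = 0 → hh x f = 0 → hh y e = 0 → hh y f = 0 → L x = L y → x = y := by
    intro x y hx hxf hy hyf h
    have h1 := hLadd (x - y) y (by rw [herm_sub_left hc.form, hx, hy, sub_zero])
      (by rw [herm_sub_left hc.form, hxf, hyf, sub_zero]) hy hyf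
    rw [sub_add_cancel, h, eq_comm, add_eq_right] at h1
    exact sub_eq_zero.1 (hL0 _ (by rw [herm_sub_left hc.form, hx, hy, sub_zero])
      (by rw [herm_sub_left hc.form, hxf, hyf, sub_zero]) h1)
  have hLsurj : ∀ w' : V, ∃ w : V, hh w' e' = 0 → hh w' f' = 0 → hh w e = 0 ∧ hh w f = 0 ∧ L w = w' := by
    intro w'
    by_cases hwe : hh w' e' = 0
    swap
    · exact ⟨0, fun h => absurd h hwe⟩
    obtain ⟨z', hz'⟩ := exists_z hc w'
    obtain ⟨A, hA, hA'⟩ := hQ' _ (mk_mem_Qb (EU_mem hc he' hwe hz'))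
    obtain ⟨w, z, h1, h2, hz, rfl⟩ := EU_param hc hb.hee hb.hff hb.hfe hA
    refine ⟨w, fun _ hwf => ⟨h1, h2, ?_⟩⟩
    obtain ⟨z'', hz'', h⟩ := (hL w h1 h2).2.2 z hz
    have h3 : β (β.symm (QuotientGroup.mk (EU e' w' z' : SUn))) = QuotientGroup.mk (EU e' (L w) z'' : SUn) := by
      rw [← hA']; exact h
    rw [MulEquiv.apply_symm_apply] at h3
    exact (mkEU_inj hc hn he' hfe' he0' hwe hwf hz' (hLP w h1 h2).1 (hLP w h1 h2).2 hz'' h3).1.symm
  choose M hM using hLsurj
  -- intertwining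
  have hint : ∀ (t : SUn) (lam : F), lam ≠ 0 → act t e = lam • e → act t f = (σ lam)⁻¹ • f →
      ∃ (s : SUn) (μ : F), μ ≠ 0 ∧ act s e' = μ • e' ∧ act s f' = (σ μ)⁻¹ • f' ∧
        ∀ w, hh w e = 0 → hh w f = 0 → L (σ lam • act t w) = σ μ • act s (L w) := by
    intro t lam hl hte htf
    obtain ⟨s, μ, hμ, hs, hse, hsf⟩ := fix_pair hc hn he0' hf0' hfe' (y := β (QuotientGroup.mk t))
      ((hPe _).1 (mk_mem_Pb ⟨lam, hl, hte⟩))
      ((hPf _).1 (mk_mem_Pb ⟨(σ lam)⁻¹, inv_ne_zero ((map_ne_zero σ).2 hl), htf⟩))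
    refine ⟨s, μ, hμ, hse, hsf, fun w hwe hwf => ?_⟩
    obtain ⟨z, hz⟩ := exists_z hc w
    obtain ⟨z', hz', h⟩ := (hL w hwe hwf).2.2 z hz
    obtain ⟨p1, p2⟩ := perp_image hc hl hte htf hwe hwf
    obtain ⟨q1, q2⟩ := perp_image hc hμ hse hsf (hLP w hwe hwf).1 (hLP w hwe hwf).2
    have hzt : lam * σ lam * z + σ (lam * σ lam * z) + hh (σ lam • act t w) (σ lam • act t w) = 0 := by
      rw [hc.form.smul_left, herm_smul_right hc.form, iso, map_mul, map_mul, hc.form.involutive]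
      linear_combination (lam * σ lam) * hz
    have hzs : μ * σ μ * z' + σ (μ * σ μ * z') + hh (σ μ • act s (L w)) (σ μ • act s (L w)) = 0 := by
      rw [hc.form.smul_left, herm_smul_right hc.form, iso, map_mul, map_mul, hc.form.involutive]
      linear_combination (μ * σ μ) * hz'
    obtain ⟨z'', hz'', h2⟩ := (hL _ p1 p2).2.2 _ hzt
    rw [← conj_diag hc hb.hee hte hwe hwf hz, QuotientGroup.mk_mul, QuotientGroup.mk_mul, map_mul, map_mul,
      QuotientGroup.mk_inv, map_inv, hs, h, ← QuotientGroup.mk_inv, ← QuotientGroup.mk_mul, ← QuotientGroup.mk_mul,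
      conj_diag hc he' hse (hLP w hwe hwf).1 (hLP w hwe hwf).2 hz'] at h2
    exact (mkEU_inj hc hn he' hfe' he0' q1 q2 hzs (hLP _ p1 p2).1 (hLP _ p1 p2).2 hz'' h2).1.symm
  have hsc : ∀ c : F, ∃ c₁ : F, ∀ w, hh w e = 0 → hh w f = 0 → L (c₁ • w) = c • L w := by
    intro c
    have hp : ∀ w, hh w e = 0 → hh w f = 0 → hh (c • L w) e' = 0 ∧ hh (c • L w) f' = 0 := fun w h1 h2 =>
      ⟨by rw [hc.form.smul_left, (hLP w h1 h2).1, mul_zero], by rw [hc.form.smul_left, (hLP w h1 h2).2, mul_zero]⟩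
    have hT : ∀ w, hh w e = 0 → hh w f = 0 →
        hh (M (c • L w)) e = 0 ∧ hh (M (c • L w)) f = 0 ∧ L (M (c • L w)) = c • L w := fun w h1 h2 =>
      hM _ (hp w h1 h2).1 (hp w h1 h2).2
    obtain ⟨c₁, hc₁⟩ := scalar_of_comm hc hq3 hb (fun w => M (c • L w)) (fun x y hx hxf hy hyf => by
        obtain ⟨a1, a2, a3⟩ := hT x hx hxf
        obtain ⟨b1, b2, b3⟩ := hT y hy hyf
        obtain ⟨c1, c2, c3⟩ := hT (x + y) (by rw [hc.form.add_left, hx, hy, add_zero])
          (by rw [hc.form.add_left, hxf, hyf, add_zero])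
        refine hLsub _ _ c1 c2 (by rw [hc.form.add_left, a1, b1, add_zero])
          (by rw [hc.form.add_left, a2, b2, add_zero]) ?_
        rw [c3, hLadd _ _ a1 a2 b1 b2, a3, b3, hLadd _ _ hx hxf hy hyf, smul_add])
      (fun x h1 h2 => ⟨(hT x h1 h2).1, (hT x h1 h2).2.1⟩) (fun t lam hl hte htf w h1 h2 => by
        obtain ⟨p1, p2⟩ := perp_image hc hl hte htf h1 h2
        obtain ⟨a1, a2, a3⟩ := hT w h1 h2
        obtain ⟨r1, r2⟩ := perp_image hc hl hte htf a1 a2
        obtain ⟨b1, b2, b3⟩ := hT _ p1 p2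
        refine hLsub _ _ b1 b2 r1 r2 ?_
        obtain ⟨s, μ, -, -, -, hs⟩ := hint t lam hl hte htf
        rw [b3, hs w h1 h2, hs _ a1 a2, a3, act_smul, smul_comm])
    exact ⟨c₁, fun w h1 h2 => by rw [← hc₁ w h1 h2, (hT w h1 h2).2.2]⟩
  choose τ hτ using hsc
  obtain ⟨i0⟩ : Nonempty (Fin m) := ⟨⟨0, by have := frame_card hc hb; omega⟩⟩
  have hLd : L (d i0) ≠ 0 := fun h0 => by
    have := hb.hdd i0 i0
    rw [hL0 _ (hb.hde i0) (hb.hdf i0) h0, herm_zero_left hc.form, if_pos rfl] at this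
    exact zero_ne_one this
  have hτinj : Function.Injective τ := by
    intro a b h
    refine smul_left_injective F hLd ?_
    show a • L (d i0) = b • L (d i0)
    rw [← hτ a _ (hb.hde i0) (hb.hdf i0), ← hτ b _ (hb.hde i0) (hb.hdf i0), h]
  have hτbij : Function.Bijective τ := ⟨hτinj, Finite.surjective_of_injective hτinj⟩
  let θ₀ : F → F := fun c => (Equiv.ofBijective τ hτbij).symm c
  have hθτ : ∀ c, τ (θ₀ c) = c := fun c => (Equiv.ofBijective τ hτbij).apply_symm_apply c
  have hLθ : ∀ (c : F) w, hh w e = 0 → hh w f = 0 → L (c • w) = θ₀ c • L w := fun c w h1 h2 => by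
    conv_lhs => rw [← hθτ c]
    exact hτ _ w h1 h2
  have hθext : ∀ a b, a • L (d i0) = b • L (d i0) → a = b := fun a b h => smul_left_injective F hLd h
  have hP0 : ∀ c : F, hh (c • d i0) e = 0 ∧ hh (c • d i0) f = 0 := fun c =>
    ⟨by rw [hc.form.smul_left, hb.hde, mul_zero], by rw [hc.form.smul_left, hb.hdf, mul_zero]⟩
  have hθmul : ∀ a b, θ₀ (a * b) = θ₀ a * θ₀ b := fun a b => hθext _ _ (by
    rw [← hLθ _ _ (hb.hde i0) (hb.hdf i0), mul_smul, hLθ a _ (hP0 b).1 (hP0 b).2, hLθ b _ (hb.hde i0) (hb.hdf i0),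
      smul_smul])
  have hθadd : ∀ a b, θ₀ (a + b) = θ₀ a + θ₀ b := fun a b => hθext _ _ (by
    rw [← hLθ _ _ (hb.hde i0) (hb.hdf i0), add_smul, hLadd _ _ (hP0 a).1 (hP0 a).2 (hP0 b).1 (hP0 b).2,
      hLθ a _ (hb.hde i0) (hb.hdf i0), hLθ b _ (hb.hde i0) (hb.hdf i0), add_smul])
  let θ : F ≃+* F :=
    { (Equiv.ofBijective τ hτbij).symm with map_mul' := hθmul, map_add' := hθadd }
  have hθσ : ∀ c, θ (σ c) = σ (θ c) := fun c => by rw [hc.pow, hc.pow, map_pow]
  have hLθ' : ∀ (c : F) w, hh w e = 0 → hh w f = 0 → L (c • w) = θ c • L w := hLθ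
  -- the form
  have hcomm : ∀ w w', hh w e = 0 → hh w f = 0 → hh w' e = 0 → hh w' f = 0 →
      ψ (hh w w' - σ (hh w w')) = hh (L w) (L w') - σ (hh (L w) (L w')) := by
    intro w w' h1 h2 h3 h4
    obtain ⟨a, ha⟩ := exists_z hc w
    obtain ⟨b, hb'⟩ := exists_z hc w'
    obtain ⟨a', ha', hA⟩ := (hL w h1 h2).2.2 a ha
    obtain ⟨b', hb'', hB⟩ := (hL w' h3 h4).2.2 b hb'
    have key : ∀ {E : V} {u u' : V} {z z' : F}, hh E E = 0 → hh u E = 0 → hh u' E = 0 →
        z + σ z + hh u u = 0 → z' + σ z' + hh u' u' = 0 →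
        (QuotientGroup.mk (EU E u z : SUn) : PU) * QuotientGroup.mk (EU E u' z' : SUn) =
          QuotientGroup.mk (EU E u' z' : SUn) * QuotientGroup.mk (EU E u z : SUn) *
            PT E (hh u u' - σ (hh u u')) := by
      intro E u u' z z' hE hu hu' hz hz'
      have h5 : hh (u' + u) E = 0 := by rw [hc.form.add_left, hu, hu', add_zero]
      have h6 : (z' + z - hh u u') + σ (z' + z - hh u u') + hh (u' + u) (u' + u) = 0 := by
        simp only [map_sub, map_add, hc.form.add_left, herm_add_right hc.form]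
        rw [← hc.form.herm u' u]
        linear_combination hz + hz'
      have h7 : (z + z' - hh u' u) + σ (z + z' - hh u' u) + hh (u' + u) (u' + u) = 0 := by
        simp only [map_sub, map_add, hc.form.add_left, herm_add_right hc.form]
        rw [← hc.form.herm u u']
        linear_combination hz + hz'
      rw [mkEU_mul hc hE hu' hz' hu hz, mkEU_mul hc hE hu hz hu' hz', add_comm u, (EU_shift hc hE h5 h6 h7).1,
        ← hc.form.herm u' u]
      congr 2
      ring
    have e1 := congrArg β (key hb.hee h1 h3 ha hb')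
    have hs : ∀ x : F, (x - σ x) + σ (x - σ x) = 0 := fun x => by rw [map_sub, hc.form.involutive]; ring
    rw [map_mul, map_mul, map_mul, hA, hB, (hψ _ (hs _)).2, key he' (hLP w h1 h2).1 (hLP w' h3 h4).1 ha' hb'',
      mul_right_inj] at e1
    exact (PT_inj hc hn he' he0' (hs _) (hψ _ (hs _)).1 e1).symm
  obtain ⟨κ, hκdef⟩ : ∃ κ, κ = hh (L (d i0)) (L (d i0)) := ⟨_, rfl⟩
  have hκσ : σ κ = κ := by rw [hκdef, herm_self_fixed hc.form]
  have hψκ : ∀ y : F, ψ (y - σ y) = κ * (θ y - σ (θ y)) := by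
    intro y
    have h := hcomm (y • d i0) (d i0) (hP0 y).1 (hP0 y).2 (hb.hde i0) (hb.hdf i0)
    rw [hc.form.smul_left, hb.hdd, if_pos rfl, mul_one, hLθ' y _ (hb.hde i0) (hb.hdf i0), hc.form.smul_left,
      ← hκdef, map_mul, hκσ] at h
    rw [h]; ring
  have hform : ∀ w w', hh w e = 0 → hh w f = 0 → hh w' e = 0 → hh w' f = 0 →
      hh (L w) (L w') = κ * θ (hh w w') := by
    intro w w' h1 h2 h3 h4
    obtain ⟨X, hX⟩ : ∃ X, X = hh (L w) (L w') - κ * θ (hh w w') := ⟨_, rfl⟩
    have hfx : ∀ c : F, θ c * X = σ (θ c * X) := by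
      intro c
      have h := hcomm (c • w) w' (by rw [hc.form.smul_left, h1, mul_zero]) (by rw [hc.form.smul_left, h2, mul_zero])
        h3 h4
      rw [hψκ, hc.form.smul_left, hLθ' c w h1 h2, hc.form.smul_left] at h
      simp only [hX, map_mul, map_sub, hκσ] at h ⊢
      linear_combination -h
    obtain ⟨x, hx0, hx⟩ := Cfsg.Lib.Classical.exists_nonfixed hc.form
    have e1 := hfx 1
    rw [map_one, one_mul] at e1
    have e2 := hfx (θ.symm x)
    rw [θ.apply_symm_apply, map_mul, ← e1] at e2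
    have hX0 : X = 0 := (mul_eq_zero.1 (show (x - σ x) * X = 0 by linear_combination e2)).resolve_left
      (sub_ne_zero.2 (Ne.symm hx))
    rw [hX] at hX0
    linear_combination hX0
  have hκ0 : κ ≠ 0 := by
    intro h0
    obtain ⟨x, hx⟩ := (hc.form.nondegenerate _ hLd).2
    refine hx ?_
    obtain ⟨l1, l2⟩ := hLP _ (hb.hde i0) (hb.hdf i0)
    obtain ⟨x', hx'⟩ : ∃ x', x' = x - hh x f' • e' - hh x e' • f' := ⟨_, rfl⟩
    obtain ⟨a1, a2, a3⟩ := hM x' (by simp [hx', herm_sub_left hc.form, hc.form.smul_left, he', hfe'])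
      (by simp [hx', herm_sub_left hc.form, hc.form.smul_left, hf', hef'])
    have h1 := hform _ _ (hb.hde i0) (hb.hdf i0) a1 a2
    rw [a3, h0, zero_mul] at h1
    simpa [hx', herm_sub_right hc.form, herm_smul_right hc.form, l1, l2] using h1
  have hψθ : ∀ c, c + σ c = 0 → ψ c = κ * θ c := by
    intro c hcs
    obtain ⟨a, ha⟩ := exists_trace_eq hc.form.ne_refl hc.form.involutive (a := (1 : F)) (map_one σ)
    have hsc' : σ c = -c := by linear_combination hcs
    have hy : c = c * a - σ (c * a) := by rw [map_mul, hsc']; linear_combination -c * ha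
    conv_lhs => rw [hy]
    rw [hψκ, ← hθσ, ← map_sub, ← hy]
  -- the semilinear map
  obtain ⟨a, ha⟩ := exists_norm_eq hc.form.ne_refl hc.form.involutive (a := κ) hκσ
  have ha0 : a ≠ 0 := fun h0 => hκ0 (by rw [← ha, h0, zero_mul])
  have hσa : σ a ≠ 0 := (map_ne_zero σ).2 ha0
  let pr : V → V := fun y => y - hh y f • e - hh y e • f
  have hpr : ∀ y, hh (pr y) e = 0 ∧ hh (pr y) f = 0 := fun y =>
    ⟨by simp [pr, herm_sub_left hc.form, hc.form.smul_left, hb.hee, hb.hfe],
     by simp [pr, herm_sub_left hc.form, hc.form.smul_left, hb.hff, hef]⟩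
  let Gy : V → V := fun y =>
    (a * θ (hh y f)) • e' + ((σ a)⁻¹ * θ (hh y e)) • f' + (σ a)⁻¹ • L (pr y)
  let G : V →ₗ[F] V :=
    { toFun := fun x => Gy (fv θ.symm x)
      map_add' := fun x y => by
        have e1 : fv θ.symm (x + y) = fv θ.symm x + fv θ.symm y := funext fun i => map_add θ.symm _ _
        have e2 : pr (fv θ.symm x + fv θ.symm y) = pr (fv θ.symm x) + pr (fv θ.symm y) := by
          simp only [pr, hc.form.add_left]; module
        rw [e1]
        simp only [Gy, e2, hLadd _ _ (hpr _).1 (hpr _).2 (hpr _).1 (hpr _).2, hc.form.add_left, map_add]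
        module
      map_smul' := fun c x => by
        have e1 : fv θ.symm (c • x) = θ.symm c • fv θ.symm x := funext fun i => map_mul θ.symm _ _
        have e2 : pr (θ.symm c • fv θ.symm x) = θ.symm c • pr (fv θ.symm x) := by
          simp only [pr, hc.form.smul_left]; module
        rw [e1]
        simp only [Gy, e2, hLθ' _ _ (hpr _).1 (hpr _).2, hc.form.smul_left, map_mul, RingEquiv.apply_symm_apply,
          RingHom.id_apply]
        module }
  have hGiso : ∀ x x', hh (G x) (G x') = hh x x' := by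
    intro x x'
    have key : ∀ y y', hh (Gy y) (Gy y') = θ (hh y y') := by
      intro y y'
      have hy : ∀ u, u = hh u f • e + hh u e • f + pr u := fun u => by simp only [pr]; abel
      conv_rhs => rw [hy y, hy y']
      simp only [Gy, hc.form.add_left, hc.form.smul_left, herm_add_right hc.form, herm_smul_right hc.form, he', hf',
        hfe', hef', hb.hee, hb.hff, hb.hfe, hef, (hLP _ (hpr _).1 (hpr _).2).1, (hLP _ (hpr _).1 (hpr _).2).2,
        herm_eq_zero_symm hc.form (hLP _ (hpr _).1 (hpr _).2).1,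
        herm_eq_zero_symm hc.form (hLP _ (hpr _).1 (hpr _).2).2,
        (hpr _).1, (hpr _).2, herm_eq_zero_symm hc.form (hpr _).1, herm_eq_zero_symm hc.form (hpr _).2,
        hform _ _ (hpr _).1 (hpr _).2 (hpr _).1 (hpr _).2, map_add, map_mul, map_inv₀, hc.form.involutive,
        hθσ, mul_zero, add_zero, zero_add, mul_one, map_zero]
      field_simp
      rw [← ha]
      ring
    show hh (Gy (fv θ.symm x)) (Gy (fv θ.symm x')) = _
    rw [key, ← hh_fv, fv_symm, fv_symm]
  have hGinj : Function.Injective G := by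
    intro x y h
    rw [← sub_eq_zero]
    by_contra h0
    obtain ⟨u, hu⟩ := (hc.form.nondegenerate _ h0).2
    refine hu ?_
    rw [← hGiso, map_sub, h, sub_self, herm_zero_left hc.form]
  obtain ⟨g, hg⟩ : ∃ g : GUn, ∀ x, gv g x = G x := by
    let E := LinearEquiv.ofBijective G ⟨hGinj, LinearMap.surjective_of_injective hGinj⟩
    refine ⟨⟨(Cfsg.Lib.Classical.glEquiv (Fin n) F).symm E, fun x y => ?_⟩, fun x => ?_⟩
    · have h1 := hGiso x y
      rw [show G x = E x from rfl, show G y = E y from rfl, ← Cfsg.Lib.Classical.glEquiv_symm_mulVec E x,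
        ← Cfsg.Lib.Classical.glEquiv_symm_mulVec E y] at h1
      exact h1
    · exact Cfsg.Lib.Classical.glEquiv_symm_mulVec E x
  have hgθ : ∀ y, gv g (fv θ y) = Gy y := fun y => by
    rw [hg]
    show Gy (fv θ.symm (fv θ y)) = _
    rw [show fv θ.symm (fv θ y) = y from funext fun i => θ.symm_apply_apply _]
  have hL00 : L 0 = 0 := by
    have h := hLadd 0 0 (herm_zero_left hc.form _) (herm_zero_left hc.form _) (herm_zero_left hc.form _)
      (herm_zero_left hc.form _)
    rw [add_zero] at h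
    simpa using h
  have hge : gv g (fv θ e) = a • e' := by
    rw [hgθ]; simp [Gy, pr, hef, hb.hee, hL00]
  have hgf : gv g (fv θ f) = (σ a)⁻¹ • f' := by
    rw [hgθ]; simp [Gy, pr, hb.hfe, hb.hff, hL00]
  have hgw : ∀ w, hh w e = 0 → hh w f = 0 → gv g (fv θ w) = (σ a)⁻¹ • L w := fun w h1 h2 => by
    rw [hgθ]; simp [Gy, pr, h1, h2]
  let D : MulAut PU := conjP g * frobP θ
  have hθs : ∀ c, c + σ c = 0 → θ c + σ (θ c) = 0 := fun c hcs => by rw [← hθσ, ← map_add, hcs, map_zero]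
  have hD : ∀ {v : V} {c : F}, hh v v = 0 → c + σ c = 0 → D (PT v c) = PT (gv g (fv θ v)) (θ c) := by
    intro v c hv hcs
    rw [MulAut.mul_apply, frobP_PT hc θ hv hcs, conjP_PT hc g (by rw [hh_fv, hv, map_zero]) (hθs c hcs)]
  have hDe : ∀ c, c + σ c = 0 → D (PT e c) = β (PT e c) := fun c hcs => by
    rw [hD hb.hee hcs, hge, (hψ c hcs).2, hψθ c hcs, PT, PT, TU_smul hc he' a (hθs c hcs), ha]
  have hDi : ∀ x : PU, D ((D⁻¹ * β) x) = β x := fun x => by
    rw [MulAut.mul_apply]; exact D.apply_symm_apply _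
  refine ⟨g, θ, D⁻¹ * β, (mul_inv_cancel_left D β).symm, fun c hcs => ?_, fun c hcs => ?_, fun w z h1 h2 hz => ?_⟩
  · rw [MulAut.mul_apply, ← hDe c hcs]
    exact D.symm_apply_apply _
  · obtain ⟨h1, h2⟩ := hφ' c hcs
    obtain ⟨c₂, hc₂⟩ : ∃ c₂, c₂ = θ.symm (a * σ a * (k * σ k * φ c)) := ⟨_, rfl⟩
    have hs₂ : c₂ + σ c₂ = 0 := θ.injective (by
      rw [map_add, hθσ, map_zero, hc₂, θ.apply_symm_apply]; exact hNs a _ h1)
    refine ⟨c₂, hs₂, D.injective ?_⟩
    rw [hDi, hD hb.hff hs₂, hgf, h2]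
    simp only [PT]
    rw [TU_smul hc hf' _ (hθs c₂ hs₂)]
    congr 2
    rw [hc₂, θ.apply_symm_apply, map_inv₀, hc.form.involutive]
    field_simp
  · obtain ⟨z', hz', h⟩ := (hL w h1 h2).2.2 z hz
    obtain ⟨z₂, hz₂⟩ : ∃ z₂, z₂ = θ.symm (z' / κ) := ⟨_, rfl⟩
    have hκz : θ z₂ * κ = z' := by rw [hz₂, θ.apply_symm_apply, div_mul_cancel₀ _ hκ0]
    have hs₂ : z₂ + σ z₂ + hh w w = 0 := θ.injective (mul_right_cancel₀ hκ0 (by
      rw [map_add, map_add, hθσ, map_zero, zero_mul]
      rw [hform w w h1 h2 h1 h2, ← hκz, map_mul, hκσ] at hz'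
      linear_combination hz'))
    refine ⟨z₂, hs₂, D.injective ?_⟩
    rw [hDi, h, show D = conjP g * frobP θ from rfl, MulAut.mul_apply, frobP_mk, conjP_mk, frobSU_EU hc θ hb.hee h1 hs₂, conjSU_EU hc g
      (by rw [hh_fv, hb.hee, map_zero]) (by rw [hh_fv, h1, map_zero])
      (by rw [← hθσ, hh_fv, ← map_add, ← map_add, hs₂, map_zero]), hge, hgw w h1 h2,
      EU_smul hc a he' (by rw [hc.form.smul_left, (hLP w h1 h2).1, mul_zero]) (by
        rw [hc.form.smul_left, herm_smul_right hc.form, hform w w h1 h2 h1 h2, ← hθσ, map_inv₀, hc.form.involutive,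
          ← ha]
        have h9 : θ z₂ + θ (σ z₂) + θ (hh w w) = 0 := by rw [← map_add, ← map_add, hs₂, map_zero]
        field_simp
        linear_combination h9),
      smul_smul, mul_inv_cancel₀ hσa, one_smul, ha, ← hκz, mul_comm κ]

/-- An automorphism fixing the root structure at a pair is trivial. -/
theorem normal_eq_one [Finite F] {p : ℕ} [Fact p.Prime] [CharP F p] (hn : 3 ≤ n) (hq3 : n = 3 → q ≠ 2)
    {e f : V} {d : Fin m → V} (hb : Frame q e f d) (γ : MulAut PU)
    (h1 : ∀ c, c + σ c = 0 → γ (PT e c) = PT e c)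
    (h2 : ∀ c, c + σ c = 0 → ∃ c', c' + σ c' = 0 ∧ γ (PT f c) = PT f c')
    (h3 : ∀ w z, hh w e = 0 → hh w f = 0 → z + σ z + hh w w = 0 → ∃ z', z' + σ z' + hh w w = 0 ∧
      γ (QuotientGroup.mk (EU e w z : SUn)) = QuotientGroup.mk (EU e w z' : SUn)) : γ = 1 := by
  have : Fintype F := Fintype.ofFinite F
  have he0 : e ≠ 0 := fun h0 => by
    have := hb.hfe; rw [h0, herm_zero_right hc.form] at this; exact zero_ne_one this
  have hf0 : f ≠ 0 := fun h0 => by
    have := hb.hfe; rw [h0, herm_zero_left hc.form] at this; exact zero_ne_one this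
  have hef := herm_eq_one_symm hc.form hb.hfe
  obtain ⟨δ, hδ0, hδ⟩ := exists_skew hc.form.ne_refl hc.form.involutive
  have hδs : δ + σ δ = 0 := by rw [hδ, add_neg_cancel]
  -- preimages at `f`
  choose φ' hφ' using fun c : F => show ∃ c', c + σ c = 0 → c' + σ c' = 0 ∧ γ (PT f c) = PT f c' by
    by_cases hcs : c + σ c = 0
    · obtain ⟨c', h⟩ := h2 c hcs; exact ⟨c', fun _ => h⟩
    · exact ⟨0, fun h => absurd h hcs⟩
  have hφs : ∀ c', c' + σ c' = 0 → ∃ c, c + σ c = 0 ∧ γ (PT f c) = PT f c' := by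
    intro c' hc'
    let S := {c : F // c + σ c = 0}
    let Φ : S → S := fun c => ⟨φ' c.1, (hφ' c.1 c.2).1⟩
    have hinj : Function.Injective Φ := fun a b h => Subtype.ext <| PT_inj hc hn hb.hff hf0 a.2 b.2 (γ.injective (by
      rw [(hφ' a.1 a.2).2, (hφ' b.1 b.2).2, show φ' a.1 = φ' b.1 from congrArg Subtype.val h]))
    obtain ⟨⟨c, hcs⟩, hc2⟩ := (Finite.surjective_of_injective hinj) ⟨c', hc'⟩
    exact ⟨c, hcs, by rw [(hφ' c hcs).2, show φ' c = c' from congrArg Subtype.val hc2]⟩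
  have hPe := Pb_image hc hn γ he0 hb.hee he0 hb.hee (ψ := id) (fun c hcs => ⟨hcs, h1 c hcs⟩)
    (fun c hcs => ⟨c, hcs, h1 c hcs⟩)
  have hPf := Pb_image hc hn γ hf0 hb.hff hf0 hb.hff hφ' hφs
  -- the Levi complement is fixed
  have hM : ∀ (t : SUn) (lam : F), lam ≠ 0 → act t e = lam • e → act t f = (σ lam)⁻¹ • f →
      γ (QuotientGroup.mk t) = QuotientGroup.mk t := by
    intro t lam hl hte htf
    obtain ⟨s, μ, hμ, hs, hse, hsf⟩ := fix_pair hc hn he0 hf0 hb.hfe (y := γ (QuotientGroup.mk t))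
      ((hPe _).1 (mk_mem_Pb ⟨lam, hl, hte⟩))
      ((hPf _).1 (mk_mem_Pb ⟨(σ lam)⁻¹, inv_ne_zero ((map_ne_zero σ).2 hl), htf⟩))
    have hN : lam * σ lam = μ * σ μ := by
      have e0 : ∀ (u : SUn) (r : F), act u e = r • e →
          (QuotientGroup.mk u : PU) * PT e δ * (QuotientGroup.mk u : PU)⁻¹ = PT e (r * σ r * δ) := by
        intro u r hu
        rw [PT, PT, ← QuotientGroup.mk_mul, ← QuotientGroup.mk_inv, ← QuotientGroup.mk_mul, conj_TU hc u hb.hee hδs,
          hu, TU_smul hc hb.hee r hδs]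
      have hs' : ∀ r : F, r * σ r * δ + σ (r * σ r * δ) = 0 := fun r => by
        rw [map_mul, map_mul, hc.form.involutive]; linear_combination (r * σ r) * hδs
      have e1 := congrArg γ (e0 t lam hte)
      rw [map_mul, map_mul, map_inv, h1 δ hδs, h1 _ (hs' lam), hs, e0 s μ hse] at e1
      exact mul_right_cancel₀ hδ0 (PT_inj hc hn hb.hee he0 (hs' _) (hs' _) e1).symm
    have hW : ∀ w, hh w e = 0 → hh w f = 0 → σ lam • act t w = σ μ • act s w := by
      intro w hwe hwf
      obtain ⟨z, hz⟩ := exists_z hc w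
      obtain ⟨z', hz', h⟩ := h3 w z hwe hwf hz
      obtain ⟨p1, p2⟩ := perp_image hc hl hte htf hwe hwf
      obtain ⟨q1, q2⟩ := perp_image hc hμ hse hsf hwe hwf
      have hzt : lam * σ lam * z + σ (lam * σ lam * z) + hh (σ lam • act t w) (σ lam • act t w) = 0 := by
        rw [hc.form.smul_left, herm_smul_right hc.form, iso, map_mul, map_mul, hc.form.involutive]
        linear_combination (lam * σ lam) * hz
      have hzs : μ * σ μ * z' + σ (μ * σ μ * z') + hh (σ μ • act s w) (σ μ • act s w) = 0 := by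
        rw [hc.form.smul_left, herm_smul_right hc.form, iso, map_mul, map_mul, hc.form.involutive]
        linear_combination (μ * σ μ) * hz'
      obtain ⟨z'', hz'', h4⟩ := h3 _ _ p1 p2 hzt
      rw [← conj_diag hc hb.hee hte hwe hwf hz, QuotientGroup.mk_mul, QuotientGroup.mk_mul, map_mul, map_mul,
        QuotientGroup.mk_inv, map_inv, hs, h, ← QuotientGroup.mk_inv, ← QuotientGroup.mk_mul, ← QuotientGroup.mk_mul,
        conj_diag hc hb.hee hse hwe hwf hz'] at h4
      exact (mkEU_inj hc hn hb.hee hb.hfe he0 q1 q2 hzs p1 p2 hz'' h4).1.symm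
    rw [hs]
    refine (mk_eq_iff hc hn).2 ⟨lam / μ, fun x => ?_⟩
    have hσμ : σ μ ≠ 0 := (map_ne_zero σ).2 hμ
    have hσl : σ lam ≠ 0 := (map_ne_zero σ).2 hl
    obtain ⟨w, hw⟩ : ∃ w, w = x - hh x f • e - hh x e • f := ⟨_, rfl⟩
    have hwe : hh w e = 0 := by simp [hw, herm_sub_left hc.form, hc.form.smul_left, hb.hee, hb.hfe]
    have hwf : hh w f = 0 := by simp [hw, herm_sub_left hc.form, hc.form.smul_left, hb.hff, hef]
    have ex : x = hh x f • e + hh x e • f + w := by rw [hw]; abel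
    have hr : lam / μ = σ μ / σ lam := by
      field_simp
      linear_combination hN
    have htw : act t w = (lam / μ) • act s w := by
      rw [hr, div_eq_inv_mul, mul_smul, ← hW w hwe hwf, smul_smul, inv_mul_cancel₀ hσl, one_smul]
    have hte' : act t e = (lam / μ) • act s e := by rw [hte, hse, smul_smul, div_mul_cancel₀ _ hμ]
    have htf' : act t f = (lam / μ) • act s f := by
      rw [htf, hsf, smul_smul, hr]; congr 1; field_simp
    conv_lhs => rw [ex, act_add, act_add, act_smul, act_smul, hte', htf', htw]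
    conv_rhs => rw [ex, act_add, act_add, act_smul, act_smul]
    module
  -- the radical at `e` is fixed
  let H : Subgroup SUn :=
    { carrier := {A | γ (QuotientGroup.mk A) = QuotientGroup.mk A}
      one_mem' := by simp
      mul_mem' := fun {a b} ha hb' => by
        show γ (QuotientGroup.mk (a * b)) = _
        rw [QuotientGroup.mk_mul, map_mul, ha, hb']
      inv_mem' := fun {a} ha => by
        show γ (QuotientGroup.mk a⁻¹) = _
        rw [QuotientGroup.mk_inv, map_inv, ha] }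
  have hHmk : ∀ A B : SUn, (QuotientGroup.mk A : PU) = QuotientGroup.mk B → A ∈ H → B ∈ H := fun A B h hA => by
    show γ (QuotientGroup.mk B) = _
    rw [← h]; exact hA
  have hshift : ∀ w, hh w e = 0 → ∀ z z', z + σ z + hh w w = 0 → z' + σ z' + hh w w = 0 →
      EU e w z ∈ H → EU e w z' ∈ H := by
    intro w hwe z z' hz hz' hH
    show γ (QuotientGroup.mk _) = _
    obtain ⟨h4, h5⟩ := EU_shift hc hb.hee hwe hz hz'
    rw [h4, map_mul, h1 _ h5, show γ (QuotientGroup.mk _) = _ from hH]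
  have hlineH : ∀ (i : Fin m) (x : F) (z : F), z + σ z + hh (x • d i) (x • d i) = 0 → EU e (x • d i) z ∈ H := by
    intro i x z hz
    obtain ⟨g, ζ, hg0, hg, hζ, hζ2, hζ1, hζ3⟩ := exists_zeta hc
    have hζ0 : ζ ≠ 0 := fun h0 => by simp [h0] at hζ
    obtain ⟨t, lam, ρ, hl, hte, htf, hN, hρ, hρ1⟩ : ∃ (t : SUn) (lam ρ : F), lam ≠ 0 ∧ act t e = lam • e ∧
        act t f = (σ lam)⁻¹ • f ∧ lam * σ lam = 1 ∧ σ lam • act t (d i) = ρ • d i ∧ ρ ≠ 1 := by
      by_cases hm : ∀ j, j = i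
      · have hn3 : n = 3 := by
          have h1 := frame_card hc hb
          have h2 : Fintype.card (Fin m) = 1 := Fintype.card_eq_one_iff.2 ⟨i, hm⟩
          rw [Fintype.card_fin] at h2
          omega
        have hσζ : σ ζ ≠ 0 := (map_ne_zero σ).2 hζ0
        obtain ⟨t, hte, htf, htd⟩ := exists_diag hc hb hζ0 (α := fun _ => σ ζ * σ ζ)
          (fun _ => by rw [map_mul, hc.form.involutive]; linear_combination (ζ * σ ζ + 1) * hζ)
          (by
            rw [Finset.prod_const, Finset.card_univ, Fintype.card_eq_one_iff.2 ⟨i, hm⟩, pow_one]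
            field_simp
            linear_combination hζ)
        refine ⟨t, ζ, σ ζ * (σ ζ * σ ζ), hζ0, hte, htf, hζ, by rw [htd, smul_smul], fun h0 => hζ3 (hq3 hn3) ?_⟩
        linear_combination (-ζ ^ 3) * h0 + ((ζ * σ ζ) ^ 2 + ζ * σ ζ + 1) * hζ
      · push Not at hm
        obtain ⟨j, hj⟩ := hm
        obtain ⟨t, hte, htf, htd⟩ := exists_diag hc hb one_ne_zero (lam := (1 : F))
          (α := fun k => if k = i then ζ else if k = j then σ ζ else 1)
          (fun k => by
            by_cases hki : k = i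
            · simp [hki, hζ]
            · by_cases hkj : k = j
              · simp [hkj, hj, hc.form.involutive, mul_comm, hζ]
              · simp [hki, hkj])
          (by
            rw [← Finset.prod_subset (s₁ := {i, j}) (Finset.subset_univ _) (fun k _ hk => by
              simp only [Finset.mem_insert, Finset.mem_singleton, not_or] at hk
              simp [hk.1, hk.2]), Finset.prod_pair hj.symm]
            simp [hj, hζ])
        exact ⟨t, 1, ζ, one_ne_zero, hte, htf, by simp, by simp [htd], hζ1⟩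
    obtain ⟨w₀, hw₀⟩ : ∃ w₀, w₀ = (x / (ρ - 1)) • d i := ⟨_, rfl⟩
    have hρ' : ρ - 1 ≠ 0 := sub_ne_zero.2 hρ1
    have hw₀e : hh w₀ e = 0 := by rw [hw₀, hc.form.smul_left, hb.hde, mul_zero]
    have hw₀f : hh w₀ f = 0 := by rw [hw₀, hc.form.smul_left, hb.hdf, mul_zero]
    have hxe : hh (x • d i) e = 0 := by rw [hc.form.smul_left, hb.hde, mul_zero]
    obtain ⟨z₀, hz₀⟩ := exists_z hc w₀
    obtain ⟨z₀', hz₀', hE⟩ := h3 w₀ z₀ hw₀e hw₀f hz₀
    obtain ⟨hE', hsu⟩ := EU_shift hc hb.hee hw₀e hz₀ hz₀'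
    rw [hE'] at hE
    have hsum : x • d i + w₀ = σ lam • act t w₀ := by
      rw [hw₀, act_smul, smul_comm (σ lam), hρ, smul_smul, ← add_smul]
      congr 1
      field_simp
      ring
    have hzG : z₀ + σ z₀ + hh (σ lam • act t w₀) (σ lam • act t w₀) = 0 := by
      rw [hc.form.smul_left, herm_smul_right hc.form, iso, hc.form.involutive]
      linear_combination hz₀ + (hh w₀ w₀) * hN
    have hsum' : (z + z₀ - hh w₀ (x • d i)) + σ (z + z₀ - hh w₀ (x • d i)) +
        hh (σ lam • act t w₀) (σ lam • act t w₀) = 0 := by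
      rw [← hsum]
      simp only [map_sub, map_add, hc.form.add_left, herm_add_right hc.form]
      rw [← hc.form.herm (x • d i) w₀]
      linear_combination hz + hz₀
    obtain ⟨p1, p2⟩ := perp_image hc hl hte htf hw₀e hw₀f
    obtain ⟨hG, hsv⟩ := EU_shift hc hb.hee p1 hzG hsum'
    have hzG2 : lam * σ lam * z₀ = z₀ := by rw [hN, one_mul]
    have hEq : (QuotientGroup.mk (EU e (x • d i) z : SUn) : PU) =
        QuotientGroup.mk t * QuotientGroup.mk (EU e w₀ z₀ : SUn) * (QuotientGroup.mk t)⁻¹ *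
          PT e (z + z₀ - hh w₀ (x • d i) - z₀) * (QuotientGroup.mk (EU e w₀ z₀ : SUn))⁻¹ := by
      rw [← QuotientGroup.mk_inv, ← QuotientGroup.mk_mul, ← QuotientGroup.mk_mul,
        conj_diag hc hb.hee hte hw₀e hw₀f hz₀, hzG2, ← hG, eq_mul_inv_iff_mul_eq,
        mkEU_mul hc hb.hee hxe hz hw₀e hz₀, hsum]
    show γ _ = _
    rw [hEq]
    simp only [map_mul, map_inv, hE, hM t lam hl hte htf, h1 _ hsv]
    have hTU : (QuotientGroup.mk t : PU) * PT e (z₀' - z₀) = PT e (z₀' - z₀) * QuotientGroup.mk t := by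
      by_cases h0 : z₀' - z₀ = 0
      · rw [h0, PT_zero hc hb.hee, one_mul, mul_one]
      · exact (comm_PT_iff hc hn he0 hb.hee hsu h0 t).2 ⟨lam, hN, hte⟩
    have hEQ : ∀ c, c + σ c = 0 →
        Commute (QuotientGroup.mk (EU e w₀ z₀ : SUn) : PU) (PT e c) := fun c hcs =>
      (comm_Qr_TU hc he0 hb.hee hcs (EU_mem hc hb.hee hw₀e hz₀)).map (QuotientGroup.mk' _)
    obtain ⟨T, hT⟩ : ∃ T : PU, T = QuotientGroup.mk t := ⟨_, rfl⟩
    obtain ⟨E, hEdef⟩ : ∃ E : PU, E = QuotientGroup.mk (EU e w₀ z₀ : SUn) := ⟨_, rfl⟩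
    obtain ⟨u, hu⟩ : ∃ u : PU, u = PT e (z₀' - z₀) := ⟨_, rfl⟩
    obtain ⟨v, hv⟩ : ∃ v : PU, v = PT e (z + z₀ - hh w₀ (x • d i) - z₀) := ⟨_, rfl⟩
    have c1 : Commute T u := by rw [hT, hu]; exact hTU
    have c2 : Commute E u := by rw [hEdef, hu]; exact hEQ _ hsu
    have c3 : Commute u v := by
      rw [hu, hv, commute_iff_eq, PT_add hc hb.hee hsu hsv, PT_add hc hb.hee hsv hsu, add_comm]
    rw [← hT, ← hEdef, ← hu, ← hv]
    calc T * (E * u) * T⁻¹ * v * (E * u)⁻¹ = T * E * (u * T⁻¹) * (v * u⁻¹) * E⁻¹ := by group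
      _ = T * E * (T⁻¹ * u) * (u⁻¹ * v) * E⁻¹ := by rw [c1.symm.inv_right.eq, c3.symm.inv_right.eq]
      _ = T * E * T⁻¹ * v * E⁻¹ := by group
  have hQe : Qr q e ≤ H := by
    intro A hA
    obtain ⟨w, z, hwe, hwf, hz, rfl⟩ := EU_param hc hb.hee hb.hff hb.hfe hA
    have hall : ∀ s : Finset (Fin m), hh (∑ i ∈ s, hh w (d i) • d i) e = 0 ∧ ∀ z',
        z' + σ z' + hh (∑ i ∈ s, hh w (d i) • d i) (∑ i ∈ s, hh w (d i) • d i) = 0 →
        EU e (∑ i ∈ s, hh w (d i) • d i) z' ∈ H := by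
      intro s
      induction s using Finset.induction with
      | empty =>
        refine ⟨by simp [herm_zero_left hc.form], fun z' hz' => ?_⟩
        simp only [Finset.sum_empty] at hz' ⊢
        rw [herm_zero_left hc.form, add_zero] at hz'
        rw [EU_zero hc hb.hee hz']
        exact h1 z' hz'
      | insert i s hi ih =>
        rw [Finset.sum_insert hi]
        have hie : hh (hh w (d i) • d i) e = 0 := by rw [hc.form.smul_left, hb.hde, mul_zero]
        refine ⟨by rw [hc.form.add_left, hie, ih.1, add_zero], fun z' hz' => ?_⟩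
        obtain ⟨a, ha⟩ := exists_z hc (hh w (d i) • d i)
        obtain ⟨b, hb'⟩ := exists_z hc (∑ j ∈ s, hh w (d j) • d j)
        have h4 := H.mul_mem (hlineH i _ a ha) (ih.2 b hb')
        rw [EU_mul hc hb.hee hie ha ih.1 hb'] at h4
        refine hshift _ (by rw [hc.form.add_left, hie, ih.1, add_zero]) _ _ ?_ hz' h4
        simp only [map_sub, map_add, hc.form.add_left, herm_add_right hc.form]
        rw [← hc.form.herm (hh w (d i) • d i) (∑ j ∈ s, hh w (d j) • d j)]
        linear_combination ha + hb'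
    have hw : w = ∑ i, hh w (d i) • d i := by conv_lhs => rw [hb.expand w, hwe, hwf]; simp
    have h4 := (hall Finset.univ).2 z (by rw [← hw]; exact hz)
    rwa [← hw] at h4
  -- the transvections at `f` are fixed
  obtain ⟨x₀, hx₀, hx₀e, hx₀f⟩ := exists_perp_pair hc hn e f
  have hTUe : ∀ a : F, a + σ a = 0 → ∀ x, act (TU e a : SUn) x = x + (a * hh x e) • e := fun a ha =>
    TU_act hc hb.hee ha
  have hTUf : ∀ b : F, b + σ b = 0 → ∀ x, act (TU f b : SUn) x = x + (b * hh x f) • f := fun b hb' =>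
    TU_act hc hb.hff hb'
  have braid : ∀ a b, a + σ a = 0 → b + σ b = 0 → a * b = -1 →
      (TU e a * TU f b * TU e a : SUn) = TU f b * TU e a * TU f b := by
    intro a b ha hb' hab
    refine ext_su fun x => ?_
    simp only [act_mul, hTUe a ha, hTUf b hb', hc.form.add_left, hc.form.smul_left, hb.hee, hb.hff, hb.hfe, hef,
      mul_one, mul_zero, add_zero]
    match_scalars
    · ring
    · linear_combination (a * hh x e) * hab
    · linear_combination -(b * hh x f) * hab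
  have hf_fix : ∀ b, b + σ b = 0 → TU f b ∈ H := by
    intro b hb'
    by_cases hb0 : b = 0
    · rw [hb0, TU_zero hc hb.hff]; exact one_mem _
    obtain ⟨b', hb'', hγ⟩ := h2 b hb'
    have hsb : σ b = -b := by linear_combination hb'
    have ha : -b⁻¹ + σ (-b⁻¹) = 0 := by rw [map_neg, map_inv₀, hsb, inv_neg]; ring
    have e1 := congrArg (fun A : SUn => γ (QuotientGroup.mk A)) (braid (-b⁻¹) b ha hb' (by field_simp))
    have hγ' : γ (QuotientGroup.mk (TU f b : SUn)) = QuotientGroup.mk (TU f b' : SUn) := hγ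
    have hγe : γ (QuotientGroup.mk (TU e (-b⁻¹) : SUn)) = QuotientGroup.mk (TU e (-b⁻¹) : SUn) := h1 _ ha
    simp only [QuotientGroup.mk_mul, map_mul, hγ', hγe] at e1
    simp only [← QuotientGroup.mk_mul] at e1
    have e2 := eq_of_mk_eq hc hn hx₀ (by simp [act_mul, hTUe _ ha, hTUf _ hb'', hx₀e, hx₀f])
      (by simp [act_mul, hTUe _ ha, hTUf _ hb'', hx₀e, hx₀f]) e1
    have e3 := congrArg (fun u => hh (act u f) f) e2
    simp only [act_mul, hTUe _ ha, hTUf _ hb'', hc.form.add_left, hc.form.smul_left, hb.hee, hb.hff, hb.hfe, hef,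
      mul_one, mul_zero, add_zero, zero_add] at e3
    have hbb : b' = b := by
      field_simp at e3
      linear_combination e3
    show γ _ = _
    rw [hγ', hbb]
  -- the radical at `f` is fixed
  have hQf : Qr q f ≤ H := by
    intro A hA
    have hsδ : σ δ = -δ := hδ
    have hbs : -δ⁻¹ + σ (-δ⁻¹) = 0 := by rw [map_neg, map_inv₀, hsδ, inv_neg]; ring
    obtain ⟨R, hR⟩ : ∃ R : SUn, R = TU e δ * TU f (-δ⁻¹) * TU e δ := ⟨_, rfl⟩
    have hRH : R ∈ H := hR ▸ H.mul_mem (H.mul_mem (h1 _ hδs) (hf_fix _ hbs)) (h1 _ hδs)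
    have hRe : act R e = (-δ⁻¹) • f := by
      simp only [hR, act_mul, hTUe _ hδs, hTUf _ hbs, hc.form.add_left, hc.form.smul_left, hb.hee, hb.hff, hb.hfe,
        hef, mul_one, mul_zero, add_zero, zero_smul, zero_add]
      match_scalars
      · field_simp; ring
      · ring
    have hRe' : act R⁻¹ f = (-δ) • e := by
      have h4 := congrArg (act R⁻¹) hRe
      rw [act_inv, act_smul] at h4
      conv_rhs => rw [h4, smul_smul, neg_mul_neg, mul_inv_cancel₀ hδ0, one_smul]
    have hmem : R⁻¹ * A * R ∈ Qr q e := by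
      refine ⟨by rw [act_mul, act_mul, hRe, act_smul, hA.1, ← hRe, act_inv], fun y hy => ?_⟩
      obtain ⟨c, hcy⟩ := hA.2 (act R y) (by
        have h4 := iso R y e
        rw [hRe, herm_smul_right hc.form, hy] at h4
        exact (mul_eq_zero.1 h4).resolve_left ((map_ne_zero σ).2 (neg_ne_zero.2 (inv_ne_zero hδ0))))
      exact ⟨c * -δ, by rw [act_mul, act_mul, hcy, act_add, act_smul, act_inv, hRe', smul_smul]⟩
    have h4 := H.mul_mem (H.mul_mem hRH (hQe hmem)) (H.inv_mem hRH)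
    simpa [mul_assoc] using h4
  -- generation
  let S : Set V := {v | ∀ c, c + σ c = 0 → TU v c ∈ H}
  have hSact : ∀ A ∈ H, ∀ v ∈ S, hh v v = 0 → act A v ∈ S := fun A hA v hv hvv c hcs => by
    rw [← conj_TU hc A hvv hcs]; exact H.mul_mem (H.mul_mem hA (hv c hcs)) (H.inv_mem hA)
  have hSsm : ∀ (r : F), ∀ v ∈ S, hh v v = 0 → r • v ∈ S := fun r v hv hvv c hcs => by
    rw [TU_smul hc hvv r hcs]
    exact hv _ (by rw [map_mul, map_mul, hc.form.involutive]; linear_combination (r * σ r) * hcs)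
  have heS : e ∈ S := fun c hcs => h1 c hcs
  have hfS : f ∈ S := fun c hcs => hf_fix c hcs
  have hone : ∀ {a b : V}, hh a a = 0 → hh b b = 0 → hh b a = 1 → Qr q a ≤ H → b ∈ S →
      ∀ v, hh v v = 0 → hh v a ≠ 0 → v ∈ S := by
    intro a b haa hbb hba hQ hbS v hvv hva
    have hab := herm_eq_one_symm hc.form hba
    obtain ⟨u, hu⟩ : ∃ u, u = (hh v a)⁻¹ • v := ⟨_, rfl⟩
    have hua : hh u a = 1 := by rw [hu, hc.form.smul_left, inv_mul_cancel₀ hva]
    have huu : hh u u = 0 := by rw [hu, hc.form.smul_left, herm_smul_right hc.form, hvv]; ring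
    obtain ⟨z, hz⟩ : ∃ z, z = hh u b := ⟨_, rfl⟩
    obtain ⟨w, hw⟩ : ∃ w, w = u - b - z • a := ⟨_, rfl⟩
    have hwa : hh w a = 0 := by simp [hw, herm_sub_left hc.form, hc.form.smul_left, hua, hba, haa]
    have hwb : hh w b = 0 := by simp [hw, herm_sub_left hc.form, hc.form.smul_left, hbb, hab, ← hz]
    have hu' : u = b + w + z • a := by rw [hw]; abel
    have hzs : z + σ z + hh w w = 0 := by
      rw [hu'] at huu
      simp only [hc.form.add_left, hc.form.smul_left, herm_add_right hc.form, herm_smul_right hc.form, hbb, haa, hba,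
        hab, hwa, hwb, herm_eq_zero_symm hc.form hwa, herm_eq_zero_symm hc.form hwb] at huu
      linear_combination huu
    have h4 := hSact _ (hQ (EU_mem hc haa hwa hzs)) b hbS hbb
    rw [EU_apply_f hc haa hba hwa hwb hzs, ← hu', hu] at h4
    have h5 := hSsm (hh v a) _ h4 (by rw [← hu]; exact huu)
    rwa [smul_smul, mul_inv_cancel₀ hva, one_smul] at h5
  have hS : ∀ v, hh v v = 0 → v ∈ S := by
    intro v hvv
    by_cases hv0 : v = 0
    · subst hv0
      intro c hcs
      have : (TU (0 : V) c : SUn) = 1 := ext_su fun x => by rw [TU_act hc hvv hcs]; simp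
      rw [this]
      exact one_mem _
    by_cases hve : hh v e = 0
    swap
    · exact hone hb.hee hb.hff hb.hfe hQe hfS v hvv hve
    by_cases hvf : hh v f = 0
    swap
    · exact hone hb.hff hb.hee hef hQf heS v hvv hvf
    obtain ⟨y, hy⟩ := (hc.form.nondegenerate v hv0).2
    obtain ⟨u, hu⟩ : ∃ u, u = y - hh y f • e - hh y e • f := ⟨_, rfl⟩
    have hue : hh u e = 0 := by simp [hu, herm_sub_left hc.form, hc.form.smul_left, hb.hee, hb.hfe]
    have hvu : hh v u ≠ 0 := by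
      simpa [hu, herm_sub_right hc.form, herm_smul_right hc.form, hve, hvf] using hy
    obtain ⟨z, hz⟩ := exists_z hc u
    have hA : EU e u z ∈ H := hQe (EU_mem hc hb.hee hue hz)
    have hv' : act (EU e u z : SUn) v = v - hh v u • e := EU_apply_perp hc hb.hee hue hz hve hb.hff
    have h4 : v - hh v u • e ∈ S := hone hb.hff hb.hee hef hQf heS _
      (by rw [← hv', iso, hvv]) (by rw [herm_sub_left hc.form, hc.form.smul_left, hvf, hef]; simpa using hvu)
    have h5 := hSact _ (H.inv_mem hA) _ h4 (by rw [← hv', iso, hvv])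
    rwa [← hv', act_inv] at h5
  have hHtop : H = ⊤ := by
    refine TU_mem_uGen_iff hc (fun v hv c hcs => hS v hv c hcs) fun h0 => ?_
    exact Cfsg.Lib.Classical.exists_norm_ne_one (Nat.card_eq_fintype_card.symm.trans hc.card) (hq3 h0) hc.pow
  refine MulEquiv.ext fun y => ?_
  induction y using QuotientGroup.induction_on with
  | H A => exact (hHtop ▸ Subgroup.mem_top A : A ∈ H)

/-- Every automorphism is inner-diagonal times a field automorphism. -/
theorem exists_decomp [Finite F] {p : ℕ} [Fact p.Prime] [CharP F p] (hn : 3 ≤ n) (hq3 : n = 3 → q ≠ 2)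
    (β : MulAut PU) : ∃ (g : GUn) (θ : F ≃+* F), β = conjP g * frobP θ := by
  obtain ⟨e, hee, he0⟩ := exists_iso_vec hc hn
  obtain ⟨f, hff, hfe⟩ := exists_partner hc he0 hee
  obtain ⟨m, d, hb, -⟩ := exists_frame hc hn hee hff hfe
  obtain ⟨g, θ, γ, hβ, h1, h2, h3⟩ := exists_normal (p := p) hc hn hq3 β hb
  exact ⟨g, θ, by rw [hβ, normal_eq_one (p := p) hc hn hq3 hb γ h1 h2 h3, mul_one]⟩

end Cfsg.Lib.Classical.PSUAut
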