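/-
Kernels, determinants and the order of the automorphism group of `PSU_n(q)`.
-/
import Mathlib
import Cfsg.Agent.Lib.Classical.PSUAut.Main
import Cfsg.Agent.Lib.Classical.UnitaryCentre
import Cfsg.Agent.Lib.Classical.PSLAut.Field

set_option autoImplicit false

open scoped Classical

namespace Cfsg.Lib.Classical.PSUAut

open Matrix
open Cfsg.Lib.Classical (herm_add_right herm_smul_right herm_zero_left herm_zero_right herm_self_fixed
  herm_eq_zero_symm herm_eq_one_symm herm_sub_left herm_sub_right exists_skew)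
open scoped MatrixGroups

variable {F : Type*} [Field F] {n q m : ℕ} {σ : F ≃+* F}

set_option quotPrecheck false in
local notation "V" => (Fin n → F)
set_option quotPrecheck false in
local notation "hh" => (Cfsg.hermForm n F q)
set_option quotPrecheck false in
local notation "SUn" => (↥(Cfsg.SU n F q))
set_option quotPrecheck false in
local notation "PU" => (Cfsg.PSU n F q)
set_option quotPrecheck false in
local notation "GUn" => (↥(Cfsg.GU n F q))

/-- The field automorphisms as a homomorphism. -/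
def frobHom : (F ≃+* F) →* MulAut PU where
  toFun := frobP
  map_one' := frobP_one
  map_mul' θ τ := (frobP_mul θ τ).symm

theorem gv_ext {a b : GUn} (h : ∀ x, gv a x = gv b x) : a = b := Subtype.ext (Units.ext (ext_mulVec h))

/-- An element of `SU` as an element of `GU`. -/
def ofSU (A : SUn) : GUn := ⟨Matrix.SpecialLinearGroup.toGL A.1, A.2⟩

theorem gv_ofSU (A : SUn) (x : V) : gv (ofSU A) x = act A x := rfl

theorem ofSU_inv (A : SUn) : (ofSU A)⁻¹ = ofSU A⁻¹ :=
  Subtype.ext (map_inv Matrix.SpecialLinearGroup.toGL A.1).symm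

theorem conj_mk (A : SUn) : MulAut.conj (QuotientGroup.mk A : PU) = conjP (ofSU A) := by
  refine MulEquiv.ext fun z => ?_
  induction z using QuotientGroup.induction_on with
  | H t =>
    rw [conjP_mk, MulAut.conj_apply, ← QuotientGroup.mk_inv, ← QuotientGroup.mk_mul, ← QuotientGroup.mk_mul]
    refine congrArg QuotientGroup.mk (ext_su fun x => ?_)
    rw [act_conjSU, ofSU_inv, gv_ofSU, gv_ofSU, act_mul, act_mul]

theorem inndiag_eq : Cfsg.inndiagPSU n F q = (conjP (n := n) (q := q) (F := F)).range := by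
  refine le_antisymm ((Subgroup.closure_le _).2 fun β hβ => ?_) ?_
  · obtain ⟨g, rfl⟩ := isInnerDiagonal_iff.1 hβ
    exact ⟨g, rfl⟩
  · rintro β ⟨g, rfl⟩
    exact Subgroup.subset_closure (isInnerDiagonal_iff.2 ⟨g, rfl⟩)

theorem mem_gamma (g : GUn) (θ : F ≃+* F) : conjP g * frobP θ ∈ Cfsg.gammaPSU n F q := by
  refine Subgroup.subset_closure ⟨g.1, θ, g.2, fun s s' h => congrArg QuotientGroup.mk (Subtype.ext (Subtype.ext ?_))⟩
  rw [h]
  rfl

theorem Inn_conj (α h : MulAut PU) (hh' : h ∈ Cfsg.Inn PU) : α * h * α⁻¹ ∈ Cfsg.Inn PU := by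
  obtain ⟨k, rfl⟩ := hh'
  exact ⟨α k, MulEquiv.ext fun z => by simp [MulAut.conj_apply, MulAut.mul_apply]⟩

theorem inn_le : Cfsg.Inn PU ≤ (conjP (n := n) (q := q) (F := F)).range := by
  rintro _ ⟨k, rfl⟩
  obtain ⟨A, rfl⟩ := QuotientGroup.mk_surjective k
  exact ⟨_, (conj_mk A).symm⟩

/-- The determinant. -/
noncomputable def dt : GUn →* Fˣ := Matrix.GeneralLinearGroup.det.comp (Cfsg.GU n F q).subtype

variable (hc : Ctx n q σ)
include hc

omit hc in
theorem hermForm_scalar (r : F) (x y : V) :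
    hh (Matrix.scalar (Fin n) r *ᵥ x) (Matrix.scalar (Fin n) r *ᵥ y) = r * r ^ q * hh x y := by
  simp only [Cfsg.hermForm, Finset.mul_sum]
  exact Finset.sum_congr rfl fun i _ => by simp [Matrix.scalar_apply, Matrix.mulVec_diagonal, mul_pow]; ring

theorem exists_sc {r : Fˣ} (hr : (r : F) * σ r = 1) : ∃ g : GUn, (∀ x, gv g x = (r : F) • x) ∧ dt g = r ^ n := by
  refine ⟨⟨Matrix.GeneralLinearGroup.scalar (Fin n) r, fun x y => ?_⟩, fun x => ?_, ?_⟩
  · refine (hermForm_scalar (r : F) x y).trans ?_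
    rw [← hc.pow, hr, one_mul]
  · show Matrix.scalar (Fin n) (r : F) *ᵥ x = _
    funext i
    simp [scalar_apply, mulVec_diagonal]
  · refine Units.ext ?_
    show (Matrix.scalar (Fin n) (r : F)).det = _
    simp

theorem scalar_norm [Finite F] (hn : 3 ≤ n) {g : GUn} {r : F} (h : ∀ x, gv g x = r • x) : r * σ r = 1 := by
  obtain ⟨e, he, he0⟩ := exists_iso_vec hc hn
  obtain ⟨f, -, hfe⟩ := exists_partner hc he0 he
  have h1 := gv_iso g f e
  rw [h, h, hc.form.smul_left, herm_smul_right hc.form, hfe, mul_one] at h1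
  exact h1

theorem scalar_of_eq_one [Finite F] (hn : 3 ≤ n) {g : GUn} {θ : F ≃+* F}
    (h : (conjP g * frobP θ : MulAut PU) = 1) : θ = 1 ∧ ∃ r : F, ∀ x, gv g x = r • x := by
  have : Fintype F := Fintype.ofFinite F
  obtain ⟨δ, hδ0, hδ⟩ := exists_skew hc.form.ne_refl hc.form.involutive
  have hδs : δ + σ δ = 0 := by rw [hδ, add_neg_cancel]
  let G : V → V := fun v => gv g (fv θ v)
  have hθs : θ δ + σ (θ δ) = 0 := by rw [hc.pow, ← map_pow, ← map_add, ← hc.pow, hδs, map_zero]
  have hiso : ∀ u v, hh (G u) (G v) = θ (hh u v) := fun u v => by rw [gv_iso, hh_fv]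
  have hGadd : ∀ u v, G (u + v) = G u + G v := fun u v => by
    show gv g _ = _
    rw [show fv θ (u + v) = fv θ u + fv θ v from funext fun i => map_add θ _ _, gv_add]
  have hGsm : ∀ (c : F) v, G (c • v) = θ c • G v := fun c v => by
    show gv g _ = _
    rw [show fv θ (c • v) = θ c • fv θ v from funext fun i => map_mul θ _ _, gv_smul]
  have hfix : ∀ v : V, v ≠ 0 → hh v v = 0 → ∃ k : F, G v = k • v := by
    intro v hv0 hv
    have h1 := MulEquiv.congr_fun h (PT v δ)
    rw [MulAut.mul_apply, frobP_PT hc θ hv hδs, conjP_PT hc g (by rw [hh_fv, hv, map_zero]) hθs,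
      MulAut.one_apply] at h1
    obtain ⟨k, hk, -⟩ := PT_eq_param hc hn (by rw [gv_iso, hh_fv, hv, map_zero]) hv hθs hδs
      (by simpa using hδ0) (fun h0 => hv0 (by
        have h2 := gv_inv g (fv θ v)
        rw [h0] at h2
        have h3 : fv θ v = 0 := by rw [← h2]; exact mulVec_zero _
        exact funext fun i => θ.injective (by simpa [fv] using congrFun h3 i))) h1
    exact ⟨k, hk⟩
  obtain ⟨e, hee, he0⟩ := exists_iso_vec hc hn
  obtain ⟨f, hff, hfe⟩ := exists_partner hc he0 hee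
  obtain ⟨m, d, hb, hnm⟩ := exists_frame hc hn hee hff hfe
  have hef := herm_eq_one_symm hc.form hfe
  have hf0 : f ≠ 0 := fun h0 => by rw [h0, herm_zero_left hc.form] at hfe; exact zero_ne_one hfe
  obtain ⟨a, ha⟩ := hfix e he0 hee
  obtain ⟨b, hb'⟩ := hfix f hf0 hff
  have hab : b * σ a = 1 := by
    have h1 := hiso f e
    rw [ha, hb', hc.form.smul_left, herm_smul_right hc.form, hfe, mul_one, map_one] at h1
    exact h1
  have hW : ∀ w, hh w e = 0 → hh w f = 0 → ∀ z, z + σ z + hh w w = 0 → G w = b • w ∧ θ z * a = b * z := by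
    intro w hwe hwf z hz
    obtain ⟨v, hv⟩ : ∃ v, v = f + w + z • e := ⟨_, rfl⟩
    have hvv : hh v v = 0 := by
      simp only [hv, hc.form.add_left, hc.form.smul_left, herm_add_right hc.form, herm_smul_right hc.form, hff, hee,
        hfe, hef, hwe, hwf, herm_eq_zero_symm hc.form hwe, herm_eq_zero_symm hc.form hwf]
      linear_combination hz
    have hve : hh v e = 1 := by simp [hv, hc.form.add_left, hc.form.smul_left, hee, hfe, hwe]
    obtain ⟨k, hk⟩ := hfix v (fun h0 => by rw [h0, herm_zero_left hc.form] at hve; exact zero_ne_one hve) hvv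
    rw [hv, hGadd, hGadd, hGsm, ha, hb'] at hk
    have hgw : hh (G w) e = 0 := by
      have h1 := hiso w e
      rw [ha, herm_smul_right hc.form, hwe, map_zero] at h1
      exact (mul_eq_zero.1 h1).resolve_left (right_ne_zero_of_mul_eq_one hab)
    have hgwf : hh (G w) f = 0 := by
      have h1 := hiso w f
      rw [hb', herm_smul_right hc.form, hwf, map_zero] at h1
      exact (mul_eq_zero.1 h1).resolve_left ((map_ne_zero σ).2 (left_ne_zero_of_mul_eq_one hab))
    have e1 := congrArg (fun u => hh u e) hk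
    simp only [hc.form.add_left, hc.form.smul_left, hee, hfe, hwe, hgw, mul_one, mul_zero, add_zero] at e1
    subst e1
    have e2 := congrArg (fun u => hh u f) hk
    simp only [hc.form.add_left, hc.form.smul_left, hff, hef, hwf, hgwf, mul_one, mul_zero, add_zero, zero_add] at e2
    refine ⟨?_, e2⟩
    rw [smul_add, smul_add, smul_smul, smul_smul, e2] at hk
    linear_combination (norm := module) hk
  have hθ : ∀ c, θ c = c := by
    intro c
    obtain ⟨z1, hz1⟩ := exists_z hc (d ⟨0, by omega⟩)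
    obtain ⟨z2, hz2⟩ := exists_z hc (c • d ⟨0, by omega⟩)
    have h1 := (hW _ (hb.hde _) (hb.hdf _) z1 hz1).1
    have h2 := (hW _ (by rw [hc.form.smul_left, hb.hde, mul_zero]) (by rw [hc.form.smul_left, hb.hdf, mul_zero])
      z2 hz2).1
    rw [hGsm, h1, smul_smul, smul_smul] at h2
    have h3 := congrArg (fun u => hh u (d ⟨0, by omega⟩)) h2
    simp [hc.form.smul_left, hb.hdd] at h3
    exact mul_right_cancel₀ (left_ne_zero_of_mul_eq_one hab) (by linear_combination h3)
  have hθ1 : θ = 1 := RingEquiv.ext hθ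
  have heq : a = b := by
    have h1 := (hW 0 (herm_zero_left hc.form _) (herm_zero_left hc.form _) δ
      (by rw [herm_zero_left hc.form, add_zero, hδs])).2
    rw [hθ] at h1
    exact mul_left_cancel₀ hδ0 (by linear_combination h1)
  refine ⟨hθ1, b, fun x => ?_⟩
  have hGx : gv g x = G x := by show _ = gv g (fv θ x); rw [hθ1]; rfl
  obtain ⟨w, hw⟩ : ∃ w, w = x - hh x f • e - hh x e • f := ⟨_, rfl⟩
  have hwe : hh w e = 0 := by simp [hw, herm_sub_left hc.form, hc.form.smul_left, hee, hfe]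
  have hwf : hh w f = 0 := by simp [hw, herm_sub_left hc.form, hc.form.smul_left, hff, hef]
  obtain ⟨z, hz⟩ := exists_z hc w
  have ex : x = hh x f • e + hh x e • f + w := by rw [hw]; abel
  rw [hGx]
  conv_lhs => rw [ex, hGadd, hGadd, hGsm, hGsm, hθ, hθ, ha, hb', (hW w hwe hwf z hz).1, heq]
  conv_rhs => rw [ex]
  module

theorem conjP_eq_one_iff [Finite F] (hn : 3 ≤ n) {g : GUn} :
    (conjP g : MulAut PU) = 1 ↔ ∃ r : F, ∀ x, gv g x = r • x := by
  constructor
  · intro h
    exact (scalar_of_eq_one hc hn (θ := 1) (by rw [frobP_one, mul_one, h])).2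
  · rintro ⟨r, hr⟩
    refine MulEquiv.ext fun y => ?_
    induction y using QuotientGroup.induction_on with
    | H s =>
      rw [conjP_mk, MulAut.one_apply]
      refine congrArg QuotientGroup.mk (ext_su fun x => ?_)
      rw [act_conjSU, hr, ← act_smul, ← hr, gv_inv']

theorem frobP_injective [Finite F] (hn : 3 ≤ n) : Function.Injective (frobP (n := n) (q := q) (F := F)) := by
  intro θ τ h
  refine eq_of_mul_inv_eq_one (scalar_of_eq_one hc hn (g := 1) ?_).1
  rw [map_one, one_mul, ← frobP_mul, h, frobP_mul, mul_inv_cancel, frobP_one]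

theorem orderOf_frobP [Finite F] (hn : 3 ≤ n) (θ : F ≃+* F) : orderOf (frobP θ : MulAut PU) = orderOf θ :=
  orderOf_injective (frobHom (n := n) (q := q)) (frobP_injective hc hn) θ

theorem conjP_mem_Inn_iff [Finite F] (hn : 3 ≤ n) (g : GUn) :
    (conjP g : MulAut PU) ∈ Cfsg.Inn PU ↔ ∃ u : Fˣ, (u : F) * σ u = 1 ∧ dt g = u ^ n := by
  constructor
  · rintro ⟨k, hk⟩
    obtain ⟨A, rfl⟩ := QuotientGroup.mk_surjective k
    rw [conj_mk] at hk
    obtain ⟨r, hr⟩ := (conjP_eq_one_iff hc hn).1 (show (conjP ((ofSU A)⁻¹ * g) : MulAut PU) = 1 by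
      rw [map_mul, map_inv, hk, inv_mul_cancel])
    have hN := scalar_norm hc hn hr
    refine ⟨Units.mk0 r (left_ne_zero_of_mul_eq_one hN), hN, ?_⟩
    obtain ⟨s, hs, hds⟩ := exists_sc hc (r := Units.mk0 r (left_ne_zero_of_mul_eq_one hN)) hN
    have he : (ofSU A)⁻¹ * g = s := gv_ext fun x => by rw [hr, hs]; rfl
    rw [inv_mul_eq_iff_eq_mul] at he
    rw [he, map_mul, hds, show dt (ofSU A) = 1 from Units.ext A.1.2, one_mul]
  · rintro ⟨u, hu, hd⟩
    obtain ⟨s, hs, hds⟩ := exists_sc hc hu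
    have hd' : dt (s⁻¹ * g) = 1 := by rw [map_mul, map_inv, hds, hd, inv_mul_cancel]
    let A : SUn := mkSU (s⁻¹ * g : GUn).1.1 (congrArg Units.val hd') (s⁻¹ * g : GUn).2
    have hA : ofSU A = s⁻¹ * g := Subtype.ext (Units.ext rfl)
    refine ⟨QuotientGroup.mk A, ?_⟩
    rw [conj_mk, hA, map_mul, map_inv, (conjP_eq_one_iff hc hn).2 ⟨_, hs⟩, inv_one, one_mul]

theorem gamma_eq_top [Finite F] {p : ℕ} [Fact p.Prime] [CharP F p] (hn : 3 ≤ n) (hq3 : n = 3 → q ≠ 2) :
    Cfsg.gammaPSU n F q = ⊤ := by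
  refine eq_top_iff.2 fun β _ => ?_
  obtain ⟨g, θ, rfl⟩ := exists_decomp (p := p) hc hn hq3 β
  exact mem_gamma g θ

theorem inndiag_conj [Finite F] {p : ℕ} [Fact p.Prime] [CharP F p] (hn : 3 ≤ n) (hq3 : n = 3 → q ≠ 2)
    (α h : MulAut PU) (hh' : h ∈ Cfsg.inndiagPSU n F q) : α * h * α⁻¹ ∈ Cfsg.inndiagPSU n F q := by
  obtain ⟨g, θ, rfl⟩ := exists_decomp (p := p) hc hn hq3 α
  rw [inndiag_eq] at hh' ⊢
  obtain ⟨d, rfl⟩ := hh'
  refine ⟨g * mapG θ d * g⁻¹, ?_⟩
  rw [map_mul, map_mul, map_inv]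
  calc conjP g * conjP (mapG θ d) * (conjP g)⁻¹
      = conjP g * (conjP (mapG θ d) * frobP θ) * (frobP θ)⁻¹ * (conjP g)⁻¹ := by group
    _ = conjP g * (frobP θ * conjP d) * (frobP θ)⁻¹ * (conjP g)⁻¹ := by rw [frobP_conjP]
    _ = _ := by group

theorem card_mulAut [Fintype F] {p f : ℕ} [Fact p.Prime] [CharP F p] (hn : 3 ≤ n) (hq3 : n = 3 → q ≠ 2)
    (hq : q = p ^ f) (hF : Fintype.card F = q ^ 2) :
    Nat.card (MulAut PU) = Nat.gcd n (q + 1) * (2 * f) * Nat.card PU := by
  have hAut : Nat.card (F ≃+* F) = 2 * f :=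
    Cfsg.Lib.Classical.FinField.card_aut (p := p) (by rw [hF, hq, ← pow_mul, mul_comm])
  let Φ : GUn × (F ≃+* F) → MulAut PU := fun x => conjP x.1 * frobP x.2
  have hsurj : Function.Surjective Φ := fun β => by
    obtain ⟨g, θ, h⟩ := exists_decomp (p := p) hc hn hq3 β
    exact ⟨(g, θ), h.symm⟩
  let K : Subgroup GUn := (conjP (n := n) (q := q) (F := F)).ker
  have hfib : ∀ β : MulAut PU, Nat.card {x // Φ x = β} = Nat.card K := by
    intro β
    obtain ⟨⟨g, θ⟩, rfl⟩ := hsurj β
    refine Nat.card_congr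
      { toFun := fun x => ⟨g⁻¹ * x.1.1, ?_⟩
        invFun := fun k => ⟨(g * k.1, θ), ?_⟩
        left_inv := fun x => ?_
        right_inv := fun k => Subtype.ext (by simp) }
    · obtain ⟨⟨g', θ'⟩, h⟩ := x
      show conjP (g⁻¹ * g') = 1
      have h' : (conjP g' * frobP θ' : MulAut PU) = conjP g * frobP θ := h
      rw [← mul_inv_eq_iff_eq_mul, show (frobP θ : MulAut PU)⁻¹ = frobP θ⁻¹ from
        inv_eq_of_mul_eq_one_right (by rw [frobP_mul, mul_inv_cancel, frobP_one]), mul_assoc, frobP_mul] at h'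
      obtain ⟨e1, r, hr⟩ := scalar_of_eq_one hc hn (g := g⁻¹ * g') (θ := θ' * θ⁻¹)
        (by rw [map_mul, map_inv, mul_assoc, h', inv_mul_cancel])
      exact (conjP_eq_one_iff hc hn).2 ⟨r, hr⟩
    · show conjP (g * k.1) * frobP θ = conjP g * frobP θ
      rw [map_mul, show (conjP k.1 : MulAut PU) = 1 from k.2, mul_one]
    · obtain ⟨⟨g', θ'⟩, h⟩ := x
      refine Subtype.ext (Prod.ext (by simp) ?_)
      show θ = θ'
      have h' : (conjP g' * frobP θ' : MulAut PU) = conjP g * frobP θ := h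
      rw [← mul_inv_eq_iff_eq_mul, show (frobP θ : MulAut PU)⁻¹ = frobP θ⁻¹ from
        inv_eq_of_mul_eq_one_right (by rw [frobP_mul, mul_inv_cancel, frobP_one]), mul_assoc, frobP_mul] at h'
      exact (eq_of_mul_inv_eq_one (scalar_of_eq_one hc hn (g := g⁻¹ * g') (θ := θ' * θ⁻¹)
        (by rw [map_mul, map_inv, mul_assoc, h', inv_mul_cancel])).1).symm
  have hK : Nat.card K = q + 1 := by
    have hu : ∀ u : Fˣ, u ^ (q + 1) = 1 ↔ (u : F) * σ u = 1 := fun u => by
      rw [hc.pow, ← pow_succ', ← Units.val_pow_eq_pow_val, Units.val_eq_one]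
    choose s hs hds using fun u : {u : Fˣ // u ^ (q + 1) = 1} => exists_sc hc ((hu u.1).1 u.2)
    rw [← Cfsg.Lib.Classical.UnitaryCentre.card_norm_one hF]
    refine (Nat.card_congr (Equiv.ofBijective (fun u => (⟨s u, (conjP_eq_one_iff hc hn).2 ⟨_, hs u⟩⟩ : K))
      ⟨fun u v h => ?_, fun k => ?_⟩)).symm
    · obtain ⟨e, -, he0⟩ := exists_iso_vec hc hn
      have h1 := congrArg (fun k : K => gv k.1 e) h
      simp only [hs] at h1
      exact Subtype.ext (Units.ext (smul_left_injective F he0 h1))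
    · obtain ⟨r, hr⟩ := (conjP_eq_one_iff hc hn).1 k.2
      have hN := scalar_norm hc hn hr
      refine ⟨⟨Units.mk0 r (left_ne_zero_of_mul_eq_one hN), (hu _).2 hN⟩, Subtype.ext (gv_ext fun x => ?_)⟩
      rw [hs, hr]
      rfl
  have hfin : Finite (MulAut PU) :=
    Finite.of_injective (fun e => (e : PU → PU)) DFunLike.coe_injective
  have : Fintype (MulAut PU) := Fintype.ofFinite _
  have h1 : Nat.card (GUn × (F ≃+* F)) = Nat.card (MulAut PU) * (q + 1) := by
    rw [Nat.card_congr (Equiv.sigmaFiberEquiv Φ).symm, Nat.card_sigma, Finset.sum_congr rfl (fun β _ => hfib β),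
      Finset.sum_const, Finset.card_univ, smul_eq_mul, hK, Nat.card_eq_fintype_card]
  rw [Nat.card_prod, hAut, ← Cfsg.Lib.Classical.UnitaryCentre.card_SU hF (by omega),
    Subgroup.card_eq_card_quotient_mul_card_subgroup (Subgroup.center SUn),
    Cfsg.Lib.Classical.UnitaryCentre.card_center hF (by omega)] at h1
  refine Nat.eq_of_mul_eq_mul_right (show 0 < q + 1 by omega) ?_
  rw [← h1]
  ring

omit hc in
theorem charP_of_card [Fintype F] {p k : ℕ} [Fact p.Prime] (hF : Fintype.card F = p ^ k) : CharP F p := by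
  obtain ⟨r, hr⟩ := CharP.exists F
  have hrp : r.Prime := CharP.char_is_prime F r
  have : Fact r.Prime := ⟨hrp⟩
  obtain ⟨j, -, hj⟩ := FiniteField.card F r
  have : r ∣ p ^ k := hF ▸ hj ▸ dvd_pow_self r j.ne_zero
  rwa [← (Nat.prime_dvd_prime_iff_eq hrp Fact.out).1 (hrp.dvd_of_dvd_pow this)]

end Cfsg.Lib.Classical.PSUAut
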