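/-
Field automorphisms of `PSU_n(q)` of odd prime order: centralisers, conjugacy and class splitting.
-/
import Mathlib
import Cfsg.Agent.Lib.Classical.PSUAut.Kernel
import Cfsg.Agent.Lib.Classical.PSpAut.Field

set_option autoImplicit false

open scoped Classical

namespace Cfsg.Lib.Classical.PSUAut

open Matrix
open Cfsg.Lib.Classical (exists_norm_eq)
open Cfsg.Lib.Classical.FinField (nrm coe_nrm nrm_surjective hilbert90 fixed mem_fixed fixed_card_eq)
open Cfsg.Lib.Classical.PSLAut (splitClassCount_eq index_pow_sup)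
open Cfsg.Lib.Classical.PSpAut (semiV speiserV)
open scoped MatrixGroups

variable {F : Type*} [Field F] {n q : ℕ} {σ : F ≃+* F}

set_option quotPrecheck false in
local notation "V" => (Fin n → F)
set_option quotPrecheck false in
local notation "hh" => (Cfsg.hermForm n F q)
set_option quotPrecheck false in
local notation "PU" => (Cfsg.PSU n F q)
set_option quotPrecheck false in
local notation "GUn" => (↥(Cfsg.GU n F q))

theorem semiV_eq (g : GUn) (θ : F ≃+* F) (v : V) : semiV g.1 θ v = gv g (fv θ v) := rfl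

theorem exists_pow_eq (g : GUn) (θ : F ≃+* F) (k : ℕ) :
    ∃ N : GUn, (conjP g * frobP θ : MulAut PU) ^ k = conjP N * frobP (θ ^ k) ∧
      ∀ v, (semiV g.1 θ)^[k] v = gv N (fv (θ ^ k) v) := by
  induction k with
  | zero => exact ⟨1, by rw [pow_zero, pow_zero, frobP_one, map_one, one_mul], fun v => by
      rw [Function.iterate_zero_apply, gv_one]; rfl⟩
  | succ k ih =>
    obtain ⟨N, hN, hv⟩ := ih
    refine ⟨g * mapG θ N, ?_, fun v => ?_⟩
    · rw [pow_succ', hN, map_mul, pow_succ', ← frobP_mul]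
      calc conjP g * frobP θ * (conjP N * frobP (θ ^ k))
          = conjP g * (frobP θ * conjP N) * frobP (θ ^ k) := by group
        _ = _ := by rw [frobP_conjP]; group
    · rw [Function.iterate_succ_apply', hv, semiV_eq, gv_mul, gv_mapG]
      refine congrArg (gv g) (congrArg (fv θ) (congrArg (gv N) (funext fun i => ?_)))
      show _ = θ.symm ((θ ^ (k + 1)) (v i))
      rw [pow_succ', RingAut.mul_apply, RingEquiv.symm_apply_apply]
      rfl

variable (hc : Ctx n q σ)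
include hc

theorem dt_norm (g : GUn) : (dt g : F) * σ (dt g : F) = 1 := by
  have hq0 : q ≠ 0 := fun h0 => by
    have h1 := hc.pow 0
    rw [map_zero, h0, pow_zero] at h1
    exact zero_ne_one h1
  have h1 : (g.1 : Matrix (Fin n) (Fin n) F).transpose * (g.1 : Matrix (Fin n) (Fin n) F).map σ = 1 := by
    ext i j
    have h : hh (g.1.1 *ᵥ Pi.single i 1) (g.1.1 *ᵥ Pi.single j 1) = hh (Pi.single i 1) (Pi.single j 1) := g.2 _ _
    rw [Matrix.mulVec_single_one, Matrix.mulVec_single_one] at h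
    have e : hh (Pi.single i 1) (Pi.single j 1) = (1 : Matrix (Fin n) (Fin n) F) i j := by
      rcases eq_or_ne i j with rfl | hij <;> simp [Cfsg.hermForm, Pi.single_apply, *]
      simp [hij.symm]
    rw [← e, ← h, Matrix.mul_apply]
    exact Finset.sum_congr rfl fun k _ => by simp [hc.pow]
  have h2 := congrArg Matrix.det h1
  rw [Matrix.det_mul, Matrix.det_transpose, Matrix.det_one,
    show ((g.1 : Matrix (Fin n) (Fin n) F).map σ).det = σ (g.1 : Matrix (Fin n) (Fin n) F).det from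
      (RingHom.map_det (σ : F →+* F) _).symm] at h2
  exact h2

theorem exists_dt (hn : 1 ≤ n) {u : Fˣ} (hu : (u : F) * σ u = 1) : ∃ g : GUn, dt g = u := by
  let D : Fin n → F := fun i => if i = ⟨0, hn⟩ then (u : F) else 1
  have hd : ∀ i, D i * D i ^ q = 1 := fun i => by
    simp only [D]
    split_ifs
    · rw [← hc.pow, hu]
    · simp
  have hdet : (Matrix.diagonal D).det = u := by simp [D, Matrix.det_diagonal]
  refine ⟨⟨Matrix.GeneralLinearGroup.mkOfDetNeZero (Matrix.diagonal D) (by rw [hdet]; exact u.ne_zero),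
    fun x y => ?_⟩, Units.ext hdet⟩
  show hh (Matrix.diagonal D *ᵥ x) (Matrix.diagonal D *ᵥ y) = _
  simp only [Cfsg.hermForm, mulVec_diagonal, mul_pow]
  exact Finset.sum_congr rfl fun i _ => by linear_combination (x i * y i ^ q) * hd i

theorem aut_sigma (θ : F ≃+* F) (x : F) : θ (σ x) = σ (θ x) := by rw [hc.pow, hc.pow, map_pow]

theorem pow_fix [Fintype F] {p f : ℕ} [Fact p.Prime] (hq : q = p ^ f) {θ : F ≃+* F} {r : ℕ}
    (hr : orderOf θ = r) (hodd : Odd r) :
    r ∣ f ∧ q = (p ^ (f / r)) ^ r ∧ Nat.card (fixed θ) = p ^ (2 * (f / r)) ∧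
      (∀ x, θ x = x → σ x = x ^ (p ^ (f / r))) ∧ ∃ x, θ x = x ∧ σ x ≠ x := by
  have hF : Fintype.card F = p ^ (2 * f) := by
    rw [← Nat.card_eq_fintype_card, hc.card, hq, ← pow_mul, mul_comm]
  obtain ⟨hdvd, hcard⟩ := fixed_card_eq hF θ
  rw [hr] at hdvd hcard
  have hrf : r ∣ f := (Nat.coprime_two_right.2 hodd).dvd_of_dvd_mul_left hdvd
  obtain ⟨j, rfl⟩ := hrf
  have hr0 : 0 < r := hr ▸ orderOf_pos θ
  have hj : 2 * (r * j) / r = 2 * j := by rw [← mul_assoc, mul_comm 2 r, mul_assoc, Nat.mul_div_cancel_left _ hr0]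
  rw [hj] at hcard
  rw [Nat.mul_div_cancel_left _ hr0]
  refine ⟨dvd_mul_right r j, by rw [hq, ← pow_mul, mul_comm], hcard, ?_⟩
  have h1 : ∀ x, θ x = x → x ^ (p ^ (2 * j)) = x := by
    intro x hx
    let _ : Fintype (fixed θ) := Fintype.ofFinite _
    have := congrArg Subtype.val (FiniteField.pow_card (⟨x, mem_fixed.2 hx⟩ : fixed θ))
    rw [← Nat.card_eq_fintype_card, hcard] at this
    simpa using this
  have h2 : ∀ x, θ x = x → σ x = x ^ (p ^ j) := by
    intro x hx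
    obtain ⟨t, rfl⟩ := hodd
    rw [hc.pow, hq, show (2 * t + 1) * j = (2 * j) * t + j by ring]
    have h3 : ∀ s : ℕ, x ^ (p ^ (2 * j * s)) = x := by
      intro s
      induction s with
      | zero => simp
      | succ s ih => rw [show 2 * j * (s + 1) = 2 * j * s + 2 * j by ring, pow_add, pow_mul, ih, h1 x hx]
    rw [pow_add, pow_mul, h3]
  refine ⟨h2, ?_⟩
  by_contra! hall
  let _ : Fintype (fixed θ) := Fintype.ofFinite _
  obtain ⟨g, hg⟩ := IsCyclic.exists_generator (α := (fixed θ)ˣ)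
  have hord : orderOf g = p ^ (2 * j) - 1 := by
    rw [orderOf_eq_card_of_forall_mem_zpowers hg, Nat.card_units, hcard]
  have hx := mem_fixed.1 (g : fixed θ).2
  have h4 : g ^ (p ^ j) = g := Units.ext (Subtype.ext (by
    rw [Units.val_pow_eq_pow_val, SubmonoidClass.coe_pow, ← h2 _ hx, hall _ hx]))
  have hq2 := q_two hc
  have hj0 : j ≠ 0 := fun h0 => by
    rw [h0, mul_zero] at hq; rw [hq, pow_zero] at hq2; omega
  have hp1 : 1 < p ^ j := Nat.one_lt_pow hj0 (Fact.out : p.Prime).one_lt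
  have h5 : g ^ (p ^ j - 1) = 1 := by
    refine mul_right_cancel (b := g) ?_
    rw [← pow_succ, Nat.sub_add_cancel hp1.le, h4, one_mul]
  have h6 := orderOf_le_of_pow_eq_one (by omega) h5
  rw [hord, show 2 * j = j + j by ring, pow_add] at h6
  have h7 : p ^ j * 2 ≤ p ^ j * p ^ j := Nat.mul_le_mul le_rfl hp1
  omega

omit hc in
/-- The restriction of `σ` to the fixed field of `θ`. -/
noncomputable def resK [Finite F] (σ θ : F ≃+* F) : fixed θ ≃+* fixed θ :=
  RingEquiv.ofBijective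
    (((σ : F →+* F).comp (fixed θ).subtype).codRestrict (fixed θ) fun x => mem_fixed.2 (by
      show θ (σ x) = σ x
      let _ : Fintype F := Fintype.ofFinite F
      have := RingEquiv.congr_fun (Cfsg.Lib.Classical.FinField.aut_comm θ σ) (x : F)
      exact this.trans (congrArg σ (mem_fixed.1 x.2))))
    (Finite.injective_iff_bijective.1 (RingHom.injective _))

omit hc in
theorem resK_apply [Finite F] (σ θ : F ≃+* F) (x : fixed θ) : ((resK σ θ x : fixed θ) : F) = σ x := rfl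

/-- **Conjugacy in a coset of a field automorphism.** -/
theorem field_conj [Fintype F] {p f : ℕ} [Fact p.Prime] (hq : q = p ^ f) (hn : 3 ≤ n) {θ : F ≃+* F} {r : ℕ}
    (hr : orderOf θ = r) (hodd : Odd r) (g : GUn) (h : (conjP g * frobP θ : MulAut PU) ^ r = 1) :
    ∃ b : GUn, (conjP g * frobP θ : MulAut PU) = conjP b * frobP θ * (conjP b)⁻¹ := by
  have hr0 : 0 < r := hr ▸ orderOf_pos θ
  obtain ⟨-, -, -, -, s0, hs0, hs0'⟩ := pow_fix hc hq hr hodd
  obtain ⟨N, hN, hv⟩ := exists_pow_eq g θ r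
  rw [hN] at h
  have hθr : θ ^ r = 1 := hr ▸ pow_orderOf_eq_one θ
  obtain ⟨-, c, hcs⟩ := scalar_of_eq_one hc hn h
  have hcN := scalar_norm hc hn hcs
  have hTr : ∀ v, (semiV g.1 θ)^[r] v = c • v := fun v => by
    rw [hv, hθr, hcs]; rfl
  have hc0 : c ≠ 0 := left_ne_zero_of_mul_eq_one hcN
  obtain ⟨e, hee, he0⟩ := exists_iso_vec hc hn
  have hfix : θ c = c := by
    have e1 : (semiV g.1 θ)^[r] (semiV g.1 θ e) = c • semiV g.1 θ e := hTr _
    rw [← Function.iterate_succ_apply, Function.iterate_succ_apply', hTr, semiV_eq, semiV_eq,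
      show fv θ (c • e) = θ c • fv θ e from funext fun i => map_mul θ _ _, gv_smul] at e1
    refine smul_left_injective F (show gv g (fv θ e) ≠ 0 from fun h0 => he0 ?_) e1
    have h2 := gv_inv g (fv θ e)
    rw [h0] at h2
    have h3 : fv θ e = 0 := by rw [← h2]; exact mulVec_zero _
    exact funext fun i => θ.injective (by simpa [fv] using congrFun h3 i)
  -- a norm one scalar with the inverse norm
  obtain ⟨k, hk0, hkf, hku⟩ : ∃ k : F, k ≠ 0 ∧ θ k = k ∧ k = c⁻¹ * σ k := by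
    obtain ⟨s, hs, hs'⟩ : ∃ s : F, θ s = s ∧ s + c⁻¹ * σ s ≠ 0 := by
      by_cases h1 : (1 : F) + c⁻¹ = 0
      · refine ⟨s0, hs0, fun h2 => hs0' ?_⟩
        rw [show c⁻¹ = -1 by linear_combination h1] at h2
        linear_combination -h2
      · exact ⟨1, map_one θ, by rwa [map_one, mul_one]⟩
    refine ⟨s + c⁻¹ * σ s, hs', by rw [map_add, map_mul, map_inv₀, hfix, aut_sigma hc, hs], ?_⟩
    rw [map_add, map_mul, map_inv₀, hc.form.involutive, mul_add, ← mul_assoc, ← mul_inv, hcN, inv_one, one_mul]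
    ring
  obtain ⟨ν, hν⟩ := nrm_surjective θ hr hr0 (y := Units.mk0 k hk0) hkf
  have hνp := congrArg Units.val hν
  rw [coe_nrm, Units.val_mk0] at hνp
  obtain ⟨μ, hμdef⟩ : ∃ μ : F, μ = (ν : F) / σ ν := ⟨_, rfl⟩
  have hμprod : ∏ i ∈ Finset.range r, (θ ^ i) μ = c⁻¹ := by
    simp only [hμdef, map_div₀]
    rw [Finset.prod_div_distrib, hνp, show ∏ i ∈ Finset.range r, (θ ^ i) (σ (ν : F)) = σ k by
      rw [← hνp, map_prod]; exact Finset.prod_congr rfl fun i _ => aut_sigma hc (θ ^ i) _]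
    rw [div_eq_iff ((map_ne_zero σ).2 hk0)]
    exact hku
  have hσν : σ (ν : F) ≠ 0 := (map_ne_zero σ).2 ν.ne_zero
  have hμN : μ * σ μ = 1 := by
    rw [hμdef, map_div₀, hc.form.involutive]
    have := ν.ne_zero
    field_simp
  obtain ⟨sμ, hsμ, -⟩ := exists_sc hc (r := Units.mk0 μ (left_ne_zero_of_mul_eq_one hμN)) hμN
  obtain ⟨g', hg'⟩ : ∃ g' : GUn, g' = sμ * g := ⟨_, rfl⟩
  have hsemi : ∀ v, semiV g'.1 θ v = μ • semiV g.1 θ v := fun v => by
    rw [semiV_eq, semiV_eq, hg', gv_mul, hsμ, Units.val_mk0]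
  have hsm : ∀ (a : F) v, semiV g.1 θ (a • v) = θ a • semiV g.1 θ v := fun a v => by
    rw [semiV_eq, semiV_eq, show fv θ (a • v) = θ a • fv θ v from funext fun i => map_mul θ _ _, gv_smul]
  have hk' : ∀ j v, (semiV g'.1 θ)^[j] v = (∏ i ∈ Finset.range j, (θ ^ i) μ) • (semiV g.1 θ)^[j] v := by
    intro j
    induction j with
    | zero => intro v; simp
    | succ j ih =>
      intro v
      rw [Function.iterate_succ_apply', ih, hsemi, hsm, smul_smul, Finset.prod_range_succ',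
        ← Function.iterate_succ_apply' (semiV g.1 θ)]
      congr 1
      simp only [map_prod, pow_succ', RingAut.mul_apply, pow_zero, RingAut.one_apply]
      ring
  obtain ⟨a, ha⟩ := speiserV g'.1 θ hr hr0 fun v => by
    rw [hk', hTr, hμprod, smul_smul, inv_mul_cancel₀ hc0, one_smul]
  -- the transported form
  let ι' : (Fin n → fixed θ) → V := fun x i => (x i : F)
  have hι' : ∀ x, fv θ (ι' x) = ι' x := fun x => funext fun i => mem_fixed.1 (x i).2
  have hax : ∀ x : Fin n → fixed θ, a.1 *ᵥ ι' x = gv g' (fv θ (a.1 *ᵥ ι' x)) := fun x => by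
    conv_lhs => rw [← ha, ← mulVec_mulVec]
    rw [fv_mulVec, hι']
    rfl
  let f0 : (Fin n → fixed θ) → (Fin n → fixed θ) → fixed θ := fun x y =>
    ⟨hh (a.1 *ᵥ ι' x) (a.1 *ᵥ ι' y), mem_fixed.2 (by
      conv_rhs => rw [hax x, hax y, gv_iso, hh_fv])⟩
  have hadd : ∀ x y, ι' (x + y) = ι' x + ι' y := fun x y => funext fun i => rfl
  have hsmul : ∀ (t : fixed θ) x, ι' (t • x) = (t : F) • ι' x := fun t x => funext fun i => rfl
  have hf0 : Cfsg.Geo.IsUnitaryForm (resK σ θ) f0 := by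
    refine ⟨fun h0 => hs0' ?_, fun x => Subtype.ext (by rw [resK_apply, resK_apply, hc.form.involutive]),
      fun x y v => Subtype.ext ?_, fun t x v => Subtype.ext ?_, fun x v => Subtype.ext ?_, fun w hw => ?_⟩
    · exact congrArg Subtype.val (RingEquiv.congr_fun h0 ⟨s0, mem_fixed.2 hs0⟩)
    · show hh _ _ = hh _ _ + hh _ _
      rw [hadd, mulVec_add, hc.form.add_left]
    · show hh _ _ = (t : F) * hh _ _
      rw [hsmul, mulVec_smul, hc.form.smul_left]
    · rw [resK_apply]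
      exact hc.form.herm _ _
    · have hex : ∃ i, hh (a.1 *ᵥ ι' (Pi.single i 1)) (a.1 *ᵥ ι' w) ≠ 0 := by
        by_contra! hall
        have hw' : a.1 *ᵥ ι' w ≠ 0 := Cfsg.Lib.Classical.mulVec_ne_zero a fun e => hw (funext fun i =>
          Subtype.ext (congrFun e i))
        obtain ⟨z, hz⟩ := (hc.form.nondegenerate _ hw').1
        refine hz ?_
        rw [← Cfsg.Lib.Classical.mulVec_inv_mulVec a z, pi_eq_sum_univ' ((a⁻¹).1 *ᵥ z)]
        simp only [mulVec_sum, mulVec_smul, Cfsg.Lib.Classical.herm_sum_left hc.form, hc.form.smul_left]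
        refine Finset.sum_eq_zero fun i _ => ?_
        have e1 := hall i
        rw [show ι' (Pi.single i (1 : fixed θ)) = Pi.single i (1 : F) by
          funext l; by_cases hl : l = i <;> simp [ι', hl]] at e1
        rw [e1, mul_zero]
      obtain ⟨i, hi⟩ := hex
      refine ⟨⟨Pi.single i 1, fun h0 => hi (congrArg Subtype.val h0)⟩, ⟨Pi.single i 1, fun h0 => hi ?_⟩⟩
      rw [hc.form.herm, show hh (a.1 *ᵥ ι' w) (a.1 *ᵥ ι' (Pi.single i 1)) = 0 from congrArg Subtype.val h0, map_zero]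
  obtain ⟨u, -, huu⟩ := Cfsg.Lib.Classical.PSLAut.exists_orthonormal hf0 n ⊤
    (Cfsg.Lib.Classical.nondegOnH_top hf0)
    (by rw [finrank_top, Module.finrank_fintype_fun_eq_card, Fintype.card_fin])
  let K0 : Matrix (Fin n) (Fin n) F := Matrix.of fun l k => ι' (u k) l
  let bM : Matrix (Fin n) (Fin n) F := a.1 * K0
  have hbcol : ∀ k, bM *ᵥ Pi.single k 1 = a.1 *ᵥ ι' (u k) := fun k => by
    show (a.1 * K0) *ᵥ _ = _
    rw [← mulVec_mulVec]
    congr 1
    funext l; simp [K0]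
  have hq0 : q ≠ 0 := by have := q_two hc; omega
  have hbiso : ∀ x y, hh (bM *ᵥ x) (bM *ᵥ y) = hh x y := by
    intro x y
    conv_lhs => rw [pi_eq_sum_univ' x, pi_eq_sum_univ' y]
    simp only [mulVec_sum, mulVec_smul, Cfsg.Lib.Classical.herm_sum_left hc.form,
      Cfsg.Lib.Classical.herm_sum_right hc.form, hc.form.smul_left,
      Cfsg.Lib.Classical.herm_smul_right hc.form, hbcol]
    have e1 : ∀ k l, hh (a.1 *ᵥ ι' (u k)) (a.1 *ᵥ ι' (u l)) = if k = l then 1 else 0 := fun k l => by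
      rw [show hh _ _ = ((f0 (u k) (u l) : fixed θ) : F) from rfl, huu]
      split_ifs <;> rfl
    simp only [e1]
    simp [Cfsg.hermForm, ← hc.pow]
  have hdet : bM.det ≠ 0 := by
    intro hd
    obtain ⟨x, hx, hbx⟩ := Matrix.exists_mulVec_eq_zero_iff.2 hd
    obtain ⟨z, hz⟩ := (hc.form.nondegenerate x hx).1
    have := hbiso z x
    rw [hbx, Cfsg.Lib.Classical.herm_zero_right hc.form] at this
    exact hz this.symm
  let b : GUn := ⟨Matrix.GeneralLinearGroup.mkOfDetNeZero bM hdet, hbiso⟩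
  refine ⟨b, ?_⟩
  have hb : g' * mapG θ b = b := Subtype.ext (Units.ext (by
    show g'.1.1 * bM.map (θ : F →+* F) = bM
    rw [show bM = a.1 * K0 from rfl, Matrix.map_mul, ← Matrix.mul_assoc]
    have hK : K0.map (θ : F →+* F) = K0 := by
      ext l k
      exact mem_fixed.1 (u k l).2
    rw [hK]
    exact congrArg (· * K0) ha))
  have e : (conjP g : MulAut PU) = conjP g' := by
    rw [hg', map_mul, (conjP_eq_one_iff hc hn).2 ⟨_, hsμ⟩, one_mul]
  rw [e, eq_mul_inv_iff_mul_eq, mul_assoc, frobP_conjP, ← mul_assoc, ← map_mul, hb]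

theorem field_commute [Fintype F] {p f : ℕ} [Fact p.Prime] (hq : q = p ^ f) (hn : 3 ≤ n) {θ : F ≃+* F} {r : ℕ}
    (hr : orderOf θ = r) (hodd : Odd r) {g : GUn}
    (h : (conjP g * frobP θ : MulAut PU) = frobP θ * conjP g) :
    ∃ μ : Fˣ, (μ : F) * σ μ = 1 ∧ ∀ i j, θ ((μ : F) * g.1.1 i j) = (μ : F) * g.1.1 i j := by
  rw [frobP_conjP, mul_left_inj] at h
  obtain ⟨c, hcs⟩ := (conjP_eq_one_iff hc hn).1 (show (conjP (g⁻¹ * mapG θ g) : MulAut PU) = 1 by
    rw [map_mul, map_inv, ← h, inv_mul_cancel])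
  have hcN := scalar_norm hc hn hcs
  have hc0 : c ≠ 0 := left_ne_zero_of_mul_eq_one hcN
  have hσg : ∀ i j, θ (g.1.1 i j) = g.1.1 i j * c := by
    intro i j
    have e := congrArg (gv g) (hcs (Pi.single j 1))
    rw [← gv_mul, mul_inv_cancel_left, gv_smul] at e
    have e2 := congrFun e i
    simp only [gv, coe_mapG, mulVec_single_one, col_apply, map_apply, Pi.smul_apply, smul_eq_mul] at e2
    rw [e2, mul_comm]
  have hit : ∀ k i j, (θ ^ k) (g.1.1 i j) = g.1.1 i j * ∏ l ∈ Finset.range k, (θ ^ l) c := by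
    intro k
    induction k with
    | zero => intro i j; simp
    | succ k ih =>
      intro i j
      rw [pow_succ', RingAut.mul_apply, ih, map_mul, hσg, map_prod, Finset.prod_range_succ']
      simp only [pow_succ', RingAut.mul_apply, pow_zero, RingAut.one_apply]
      ring
  have hr0 : 0 < r := hr ▸ orderOf_pos θ
  have hN : nrm θ r (Units.mk0 c hc0) = 1 := by
    let o : Fin n := ⟨0, by omega⟩
    obtain ⟨i, hi⟩ : ∃ i, g.1.1 i o ≠ 0 := by
      by_contra hh'
      push Not at hh'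
      exact Cfsg.Lib.Classical.mulVec_ne_zero g.1 (x := Pi.single o 1) (by simp) (funext fun k => by simp [hh'])
    have e := hit r i o
    rw [← hr, pow_orderOf_eq_one, RingAut.one_apply, hr] at e
    refine Units.ext ?_
    rw [coe_nrm, Units.val_one, Units.val_mk0]
    exact mul_left_cancel₀ hi (e.symm.trans (mul_one _).symm)
  obtain ⟨μ₀, hμ₀⟩ := hilbert90 θ hr hr0 hN
  rw [Units.val_mk0] at hμ₀
  obtain ⟨w, hw⟩ : ∃ w, w = (μ₀ : F) * σ μ₀ := ⟨_, rfl⟩
  have hσw : σ w = w := by rw [hw, map_mul, hc.form.involutive, mul_comm]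
  have hθw : θ w = w := by
    have h1 : θ (σ (μ₀ : F)) * σ c = σ μ₀ := by rw [aut_sigma hc, ← map_mul, mul_comm, hμ₀]
    rw [hw, map_mul]
    linear_combination (θ (σ (μ₀ : F)) * σ c) * hμ₀ + (μ₀ : F) * h1 - (θ (μ₀ : F) * θ (σ (μ₀ : F))) * hcN
  obtain ⟨-, -, -, -, s0, hs0, hs0'⟩ := pow_fix hc hq hr hodd
  obtain ⟨k, hk⟩ := exists_norm_eq (σ := resK σ θ)
    (fun h0 => hs0' (congrArg Subtype.val (RingEquiv.congr_fun h0 ⟨s0, mem_fixed.2 hs0⟩)))
    (fun x => Subtype.ext (by rw [resK_apply, resK_apply, hc.form.involutive]))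
    (a := ⟨w, mem_fixed.2 hθw⟩) (Subtype.ext hσw)
  have hk' : (k : F) * σ (k : F) = w := congrArg Subtype.val hk
  have hw0 : w ≠ 0 := hw ▸ mul_ne_zero μ₀.ne_zero ((map_ne_zero σ).2 μ₀.ne_zero)
  have hk0 : (k : F) ≠ 0 := left_ne_zero_of_mul (hk'.trans_ne hw0)
  refine ⟨μ₀ / Units.mk0 (k : F) hk0, ?_, fun i j => ?_⟩
  · rw [Units.val_div_eq_div_val, Units.val_mk0, map_div₀, div_mul_div_comm, ← hw, hk', div_self hw0]
  · rw [Units.val_div_eq_div_val, Units.val_mk0, map_mul, map_div₀, hσg, mem_fixed.1 k.2]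
    linear_combination (g.1.1 i j / (k : F)) * hμ₀

theorem conj_iff [Fintype F] {p : ℕ} [Fact p.Prime] [CharP F p] (hn : 3 ≤ n) (hq3 : n = 3 → q ≠ 2) (α h : MulAut PU) :
    h ∈ Cfsg.inndiagPSU n F q ↔ α * h * α⁻¹ ∈ Cfsg.inndiagPSU n F q := by
  refine ⟨inndiag_conj (p := p) hc hn hq3 α h, fun hh' => ?_⟩
  have := inndiag_conj (p := p) hc hn hq3 α⁻¹ _ hh'
  rwa [show α⁻¹ * (α * h * α⁻¹) * α⁻¹⁻¹ = h by group] at this

/-- **Elements of prime order in a coset of a field automorphism.** -/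
theorem order_iff_conj [Fintype F] {p f : ℕ} [Fact p.Prime] [CharP F p] (hq : q = p ^ f) (hn : 3 ≤ n)
    (hq3 : n = 3 → q ≠ 2) {x δ : MulAut PU} (hx : Cfsg.IsFieldAutClassPSU x) {r : ℕ} (hxr : orderOf x = r)
    (hδ : δ ∈ Cfsg.inndiagPSU n F q) :
    orderOf (δ * x) = r ↔ Cfsg.IsConjUnder (Cfsg.inndiagPSU n F q) x (δ * x) := by
  constructor
  · intro h
    obtain ⟨α, φ, θ, -, hodd, hφ, hα⟩ := hx
    have hα' : α * x * α⁻¹ = frobP θ := hα.trans (isFieldAutOf_iff.1 hφ)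
    have hθr : orderOf θ = r := by
      rw [← orderOf_frobP hc hn θ, ← hα', ← hxr]
      exact orderOf_injective (MulAut.conj α).toMonoidHom (MulAut.conj α).injective x
    obtain ⟨d, hd⟩ := (inndiag_eq (n := n) (q := q) (F := F)) ▸ inndiag_conj (p := p) hc hn hq3 α δ hδ
    have e : α * (δ * x) * α⁻¹ = conjP d * frobP θ := by rw [hd, ← hα']; group
    obtain ⟨b, hb⟩ := field_conj hc hq hn hθr (hθr ▸ hodd) d (by
      rw [← e, conj_pow, ← h, pow_orderOf_eq_one, mul_one, mul_inv_cancel])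
    refine ⟨α⁻¹ * conjP b * α, ?_, ?_⟩
    · have := inndiag_conj (p := p) hc hn hq3 α⁻¹ (conjP b) (by rw [inndiag_eq]; exact ⟨b, rfl⟩)
      rwa [inv_inv] at this
    · calc δ * x = α⁻¹ * (α * (δ * x) * α⁻¹) * α := by group
        _ = _ := by rw [e, hb, ← hα']; group
  · rintro ⟨k, -, hk⟩
    rw [hk]
    exact (orderOf_injective (MulAut.conj k).toMonoidHom (MulAut.conj k).injective x).trans hxr

theorem field_main [Fintype F] {p f : ℕ} [Fact p.Prime] [CharP F p] (hq : q = p ^ f) (hn : 3 ≤ n)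
    (hq3 : n = 3 → q ≠ 2) {x : MulAut PU} (hx : Cfsg.IsFieldAutClassPSU x) {r : ℕ} (hxr : orderOf x = r)
    {F₀ : Type*} [Field F₀] [Fintype F₀] (hF₀ : Fintype.card F₀ = p ^ (2 * (f / r))) :
    r ∣ f ∧ Nonempty (↥(Cfsg.inndiagPSU n F q ⊓ Subgroup.centralizer {x}) ≃* Cfsg.PGU n F₀ (p ^ (f / r))) ∧
      Cfsg.splitClassCount (Cfsg.inndiagPSU n F q) (Cfsg.Inn PU) x =
        Nat.gcd n ((q + 1) / (p ^ (f / r) + 1)) := by
  obtain ⟨α, φ, θ, -, hodd, hφ, hα⟩ := hx
  have hα' : α * x * α⁻¹ = frobP θ := hα.trans (isFieldAutOf_iff.1 hφ)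
  have hθr : orderOf θ = r := by
    rw [← orderOf_frobP hc hn θ, ← hα', ← hxr]
    exact orderOf_injective (MulAut.conj α).toMonoidHom (MulAut.conj α).injective x
  obtain ⟨hdvd, hqr, hcard, hσK, -⟩ := pow_fix hc hq hθr (hθr ▸ hodd)
  obtain ⟨q0, hq0⟩ : ∃ q0, q0 = p ^ (f / r) := ⟨_, rfl⟩
  rw [← hq0] at hqr hσK ⊢
  have hF₀' : Fintype.card F₀ = q0 ^ 2 := by rw [hF₀, hq0, ← pow_mul, mul_comm]
  obtain ⟨σ₀, hc₀⟩ := exists_ctx n hF₀'
  let _ : Fintype (fixed θ) := Fintype.ofFinite _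
  let e : F₀ ≃+* fixed θ := FiniteField.ringEquivOfCardEq
    (by rw [hF₀, ← hcard, Nat.card_eq_fintype_card])
  let ι : F₀ →+* F := (fixed θ).subtype.comp (e : F₀ →+* fixed θ)
  have hι : Function.Injective ι := Subtype.val_injective.comp e.injective
  have hfixι : ∀ z, θ (ι z) = ι z := fun z => mem_fixed.1 (e z).2
  have hsur : ∀ y, θ y = y → ∃ z, ι z = y := fun y hy =>
    ⟨e.symm ⟨y, mem_fixed.2 hy⟩, congrArg Subtype.val (e.apply_symm_apply _)⟩
  have hισ : ∀ z, σ (ι z) = ι (σ₀ z) := fun z => by rw [hσK _ (hfixι z), hc₀.pow, map_pow]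
  have hform : ∀ u v : Fin n → F₀, hh (fun i => ι (u i)) (fun i => ι (v i)) = ι (Cfsg.hermForm n F₀ q0 u v) := by
    intro u v
    simp only [Cfsg.hermForm, map_sum, map_mul, ← hc.pow, hισ, ← hc₀.pow]
  have hmapv : ∀ (M : Matrix (Fin n) (Fin n) F₀) (u : Fin n → F₀),
      (fun i => ι ((M *ᵥ u) i)) = M.map ι *ᵥ fun i => ι (u i) := fun M u =>
    funext fun i => RingHom.map_mulVec ι M u i
  have hsgl : ∀ k, (fun i => ι ((Pi.single k (1 : F₀) : _ → F₀) i)) = (Pi.single k 1 : V) := fun k => by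
    funext i; by_cases hi : i = k <;> simp [hi]
  let mapι : Cfsg.GU n F₀ q0 →* GUn :=
    ((Matrix.GeneralLinearGroup.map ι).comp (Cfsg.GU n F₀ q0).subtype).codRestrict _ fun g0 => fun u v => by
      show hh (g0.1.1.map ι *ᵥ u) (g0.1.1.map ι *ᵥ v) = _
      conv_lhs => rw [pi_eq_sum_univ' u, pi_eq_sum_univ' v]
      conv_rhs => rw [pi_eq_sum_univ' u, pi_eq_sum_univ' v]
      simp only [mulVec_sum, mulVec_smul, Cfsg.Lib.Classical.herm_sum_left hc.form,
        Cfsg.Lib.Classical.herm_sum_right hc.form, hc.form.smul_left, Cfsg.Lib.Classical.herm_smul_right hc.form]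
      refine Finset.sum_congr rfl fun a _ => Finset.sum_congr rfl fun b _ => ?_
      congr 2
      rw [← hsgl a, ← hsgl b, ← hmapv, ← hmapv, hform, hform]
      exact congrArg ι (g0.2 _ _)
  have hmap : ∀ g0, mapG θ (mapι g0) = mapι g0 := fun g0 =>
    Subtype.ext (Units.ext (Matrix.ext fun i j => hfixι _))
  have hdt : ∀ g0, (dt (mapι g0) : F) = ι (dt g0 : F₀) := fun g0 => (RingHom.map_det ι g0.1.1).symm
  have hsurj : ∀ g : GUn, (conjP g * frobP θ : MulAut PU) = frobP θ * conjP g →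
      ∃ (μ : Fˣ) (sμ : GUn) (g0 : Cfsg.GU n F₀ q0), (μ : F) * σ μ = 1 ∧ (∀ v, gv sμ v = (μ : F) • v) ∧
        dt sμ = μ ^ n ∧ mapι g0 = sμ * g := by
    intro g hg
    obtain ⟨μ, hμN, hμ⟩ := field_commute hc hq hn hθr (hθr ▸ hodd) hg
    obtain ⟨sμ, hsμ, hdμ⟩ := exists_sc hc hμN
    choose z hz using fun i j => hsur _ (hμ i j)
    let M0 : Matrix (Fin n) (Fin n) F₀ := Matrix.of z
    have hM : M0.map ι = (sμ * g : GUn).1.1 := by
      refine Matrix.ext_of_mulVec_single fun j => ?_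
      show _ = gv (sμ * g) (Pi.single j 1)
      rw [gv_mul, hsμ]
      funext i
      simp [M0, gv, hz]
    have hdet : M0.det ≠ 0 := fun h0' => by
      have := congrArg Matrix.det hM
      rw [← RingHom.mapMatrix_apply, ← RingHom.map_det, h0', map_zero] at this
      exact (Matrix.GeneralLinearGroup.det (sμ * g : GUn).1).ne_zero
        (by rw [Matrix.GeneralLinearGroup.val_det_apply]; exact this.symm)
    refine ⟨μ, sμ, ⟨Matrix.GeneralLinearGroup.mkOfDetNeZero M0 hdet, fun u v => hι ?_⟩, hμN, hsμ, hdμ,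
      Subtype.ext (Units.ext hM)⟩
    show ι (Cfsg.hermForm n F₀ q0 (M0 *ᵥ u) (M0 *ᵥ v)) = _
    rw [← hform, ← hform, hmapv, hmapv, hM]
    exact (sμ * g : GUn).2 _ _
  let Φ : Cfsg.GU n F₀ q0 →* MulAut PU := (MulAut.conj α⁻¹).toMonoidHom.comp (conjP.comp mapι)
  have hΦ : ∀ g0, conjP (mapι g0) * frobP θ = frobP θ * (conjP (mapι g0) : MulAut PU) := fun g0 => by
    rw [frobP_conjP, hmap]
  have hrange : Φ.range = Cfsg.inndiagPSU n F q ⊓ Subgroup.centralizer {x} := by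
    ext y
    constructor
    · rintro ⟨g0, rfl⟩
      refine ⟨inndiag_conj (p := p) hc hn hq3 α⁻¹ _ (by rw [inndiag_eq]; exact ⟨_, rfl⟩),
        Subgroup.mem_centralizer_singleton_iff.2 ?_⟩
      show α⁻¹ * conjP (mapι g0) * α⁻¹⁻¹ * x = x * (α⁻¹ * conjP (mapι g0) * α⁻¹⁻¹)
      calc α⁻¹ * conjP (mapι g0) * α⁻¹⁻¹ * x = α⁻¹ * (conjP (mapι g0) * (α * x * α⁻¹)) * α := by group
        _ = α⁻¹ * ((α * x * α⁻¹) * conjP (mapι g0)) * α := by rw [hα', hΦ]
        _ = _ := by group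
    · rintro ⟨hG, hC⟩
      have hC' := Subgroup.mem_centralizer_singleton_iff.1 hC
      obtain ⟨g, hg⟩ := (inndiag_eq (n := n) (q := q) (F := F)) ▸ inndiag_conj (p := p) hc hn hq3 α y hG
      obtain ⟨μ, sμ, g0, -, hsμ, -, hg0⟩ := hsurj g (by
        rw [hg, ← hα']
        calc α * y * α⁻¹ * (α * x * α⁻¹) = α * (y * x) * α⁻¹ := by group
          _ = α * (x * y) * α⁻¹ := by rw [hC']
          _ = _ := by group)
      refine ⟨g0, ?_⟩
      show α⁻¹ * conjP (mapι g0) * α⁻¹⁻¹ = y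
      rw [hg0, map_mul, (conjP_eq_one_iff hc hn).2 ⟨_, hsμ⟩, one_mul, hg]
      group
  have hker : Φ.ker = (Geo.scalars (Fin n) F₀).subgroupOf (Cfsg.GU n F₀ q0) := by
    ext g0
    rw [MonoidHom.mem_ker, Subgroup.mem_subgroupOf,
      show Φ g0 = 1 ↔ (conjP (mapι g0) : MulAut PU) = 1 from map_eq_one_iff _ (MulAut.conj α⁻¹).injective,
      conjP_eq_one_iff hc hn]
    constructor
    · rintro ⟨c, hcs⟩
      have hc' : ∀ i j, ι (g0.1.1 i j) = if i = j then c else 0 := fun i j => by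
        have e := congrFun (hcs (Pi.single j 1)) i
        rw [show gv (mapι g0) (Pi.single j 1) = g0.1.1.map ι *ᵥ Pi.single j 1 from rfl] at e
        simpa [Pi.single_apply] using e
      let i0 : Fin n := ⟨0, by omega⟩
      have hne : g0.1.1 i0 i0 ≠ 0 := fun e0 => left_ne_zero_of_mul_eq_one (scalar_norm hc hn hcs) (by
        have := hc' i0 i0
        rwa [e0, map_zero, if_pos rfl, eq_comm] at this)
      show g0.1 ∈ (Matrix.GeneralLinearGroup.scalar (Fin n) (R := F₀)).range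
      refine ⟨Units.mk0 _ hne, Units.ext (Matrix.ext fun i j => hι ?_)⟩
      show ι ((Matrix.scalar (Fin n) (g0.1.1 i0 i0)) i j) = _
      rw [scalar_apply, Matrix.diagonal_apply, hc' i j]
      split_ifs <;> simp [hc' i0 i0]
    · rintro ⟨c, hcs⟩
      refine ⟨ι c, fun v => ?_⟩
      show g0.1.1.map ι *ᵥ v = _
      rw [show g0.1.1 = Matrix.scalar (Fin n) (c : F₀) from (congrArg Units.val hcs).symm, scalar_apply,
        diagonal_map (map_zero ι)]
      funext i
      simp [mulVec_diagonal]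
  refine ⟨hdvd, ⟨(MulEquiv.subgroupCongr hrange.symm).trans
    ((QuotientGroup.quotientKerEquivRange Φ).symm.trans (QuotientGroup.quotientMulEquivOfEq hker))⟩, ?_⟩
  -- class splitting
  rw [show x = α⁻¹ * frobP θ * α⁻¹⁻¹ by rw [← hα']; group,
    Cfsg.Lib.Classical.PSpAut.splitClassCount_conj _ _ α⁻¹ _ (conj_iff (p := p) hc hn hq3 α⁻¹)
      (fun h => ⟨Inn_conj α⁻¹ h, fun hh' => by
      have := Inn_conj α _ hh'
      rwa [show α * (α⁻¹ * h * α⁻¹⁻¹) * α⁻¹ = h by group] at this⟩)]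
  let U : Subgroup Fˣ := (powMonoidHom (q + 1) : Fˣ →* Fˣ).ker
  have hU : ∀ u : Fˣ, u ∈ U ↔ (u : F) * σ u = 1 := fun u => by
    rw [MonoidHom.mem_ker, powMonoidHom_apply, hc.pow, ← pow_succ', ← Units.val_pow_eq_pow_val, Units.val_eq_one]
  let dU : GUn →* U := dt.codRestrict U fun g => (hU _).2 (dt_norm hc g)
  let U0 : Subgroup F₀ˣ := (powMonoidHom (q0 + 1) : F₀ˣ →* F₀ˣ).ker
  have hU0 : ∀ u : F₀ˣ, u ∈ U0 ↔ (u : F₀) * σ₀ u = 1 := fun u => by
    rw [MonoidHom.mem_ker, powMonoidHom_apply, hc₀.pow, ← pow_succ', ← Units.val_pow_eq_pow_val, Units.val_eq_one]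
  let ιU : U0 →* U := ((Units.map (ι : F₀ →* F)).comp U0.subtype).codRestrict U fun u => (hU _).2 (by
    show ι (u.1 : F₀) * σ (ι (u.1 : F₀)) = 1
    rw [hισ, ← map_mul, (hU0 _).1 u.2, map_one])
  have hιU : Function.Injective ιU := fun a b h => Subtype.ext (Units.ext (hι
    (congrArg (fun u : U => ((u : Fˣ) : F)) h)))
  set M' := (powMonoidHom n : U →* U).range ⊔ ιU.range
  rw [inndiag_eq, splitClassCount_eq (Q := U ⧸ M') conjP (Cfsg.Inn PU) (frobP θ)
    ((QuotientGroup.mk' M').comp dU) ?_ ?_ ?_ inn_le (fun a k hk => Inn_conj _ k hk) ?_]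
  · rw [← Subgroup.index, index_pow_sup]
    have h1 := ιU.range.card_mul_index
    have hF : Fintype.card F = q ^ 2 := Nat.card_eq_fintype_card.symm.trans hc.card
    rw [show Nat.card ιU.range = q0 + 1 by
        rw [← Nat.card_congr (MonoidHom.ofInjective hιU).toEquiv,
          ← Cfsg.Lib.Classical.UnitaryCentre.card_norm_one hF₀']
        rfl,
      show Nat.card U = q + 1 from Cfsg.Lib.Classical.UnitaryCentre.card_norm_one hF] at h1
    rw [← h1, Nat.mul_div_cancel_left _ (by omega)]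
  · intro w
    obtain ⟨w, rfl⟩ := QuotientGroup.mk_surjective w
    obtain ⟨g, hg⟩ := exists_dt hc (by omega) ((hU _).1 w.2)
    exact ⟨g, congrArg (QuotientGroup.mk' M') (Subtype.ext hg)⟩
  · intro g hg
    rw [MonoidHom.comp_apply, QuotientGroup.mk'_apply, QuotientGroup.eq_one_iff]
    obtain ⟨μ, sμ, g0, hμN, -, hdμ, hg0⟩ := hsurj g hg
    have e1 : dU g = (⟨μ, (hU _).2 hμN⟩⁻¹ : U) ^ n *
        ιU ⟨dt g0, (hU0 _).2 (dt_norm hc₀ g0)⟩ := by
      refine Subtype.ext ?_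
      show dt g = (μ⁻¹) ^ n * Units.map (ι : F₀ →* F) (dt g0)
      rw [show Units.map (ι : F₀ →* F) (dt g0) = dt (mapι g0) from Units.ext (hdt g0).symm, hg0, map_mul, hdμ,
        inv_pow, inv_mul_cancel_left]
    rw [e1]
    exact mul_mem (Subgroup.mem_sup_left ⟨_, rfl⟩) (Subgroup.mem_sup_right ⟨_, rfl⟩)
  · intro g hg
    rw [MonoidHom.comp_apply, QuotientGroup.mk'_apply, QuotientGroup.eq_one_iff]
    obtain ⟨u, huN, hu⟩ := (conjP_mem_Inn_iff hc hn g).1 hg
    exact Subgroup.mem_sup_left ⟨⟨u, (hU _).2 huN⟩, Subtype.ext hu.symm⟩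
  · intro g hg
    rw [MonoidHom.comp_apply, QuotientGroup.mk'_apply, QuotientGroup.eq_one_iff] at hg
    obtain ⟨_, ⟨u, rfl⟩, w, ⟨w0, rfl⟩, e1⟩ := Subgroup.mem_sup.1 hg
    obtain ⟨c0, hc0⟩ := exists_dt hc₀ (by omega) ((hU0 _).1 w0.2)
    refine ⟨g * (mapι c0)⁻¹, mapι c0, (conjP_mem_Inn_iff hc hn _).2 ⟨u.1, (hU _).1 u.2, ?_⟩, hΦ c0, ?_⟩
    · have e3 : dt (mapι c0) = (ιU w0 : Fˣ) := Units.ext ((hdt c0).trans (by rw [hc0]; rfl))
      have e4 : dt g = (u.1 : Fˣ) ^ n * (ιU w0 : Fˣ) := (congrArg Subtype.val e1).symm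
      rw [map_mul, map_inv, e3, e4, mul_inv_cancel_right]
    · rw [← map_mul, inv_mul_cancel_right]

end Cfsg.Lib.Classical.PSUAut
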